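import Mathlib

/-!
# Half-transitive groups with a regular normal subgroup (Wielandt, Isaacs–Passman)

Counting lemmas for a finite permutation group all of whose two-point stabilizers have the same
order `m`, and the structure of a regular normal subgroup when `m > 1`.
-/

namespace Cfsg.Agent.Helper56

open MulAction Pointwise

/-- The stabilizer of a point of an invariant subset, computed in the subgroup. -/
theorem card_stabilizer_subMulAction {G Ω : Type*} [Group G] [MulAction G Ω] (D : Subgroup G)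
    (S : SubMulAction ↥D Ω) (y : S) :
    Nat.card (stabilizer ↥D y) = Nat.card ↥(D ⊓ stabilizer G (y : Ω)) := by
  refine Nat.card_congr
    { toFun := fun d => ⟨d.1.1, d.1.2, ?_⟩
      invFun := fun e => ⟨⟨e.1, e.2.1⟩, ?_⟩
      left_inv := fun d => rfl
      right_inv := fun e => rfl }
  · have h : d.1 • y = y := d.2
    have h2 := congrArg (Subtype.val) h
    exact h2
  · have h : e.1 • (y : Ω) = y := e.2.2
    show (⟨e.1, e.2.1⟩ : ↥D) • y = y
    apply Subtype.ext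
    exact h

/-- If a finite group `D` acts on a finite set `Y` with all point stabilizers of order `m`, then
`|D|` divides `m * |Y|`. -/
theorem ht_dvd {G Ω : Type*} [Group G] [Finite G] [MulAction G Ω] {m : ℕ}
    (D : Subgroup G) (Y : Set Ω) (hY : Y.Finite)
    (hinv : ∀ d ∈ D, ∀ y ∈ Y, d • y ∈ Y)
    (hst : ∀ y ∈ Y, Nat.card ↥(D ⊓ stabilizer G y) = m) :
    Nat.card D ∣ m * Y.ncard := by
  classical
  let S : SubMulAction ↥D Ω := ⟨Y, fun d y hy => hinv d.1 d.2 y hy⟩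
  have : Finite S := hY
  have : Fintype S := Fintype.ofFinite _
  have : Fintype ↥D := Fintype.ofFinite _
  have : Fintype (Quotient (orbitRel ↥D S)) := Fintype.ofFinite _
  have key := card_eq_sum_card_group_div_card_stabilizer ↥D S
  have hterm : ∀ ω : Quotient (orbitRel ↥D S),
      Fintype.card ↥D / Fintype.card (stabilizer ↥D ω.out) = Nat.card D / m := by
    intro ω
    rw [← Nat.card_eq_fintype_card, ← Nat.card_eq_fintype_card,
      card_stabilizer_subMulAction D S ω.out, hst _ ω.out.2]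
  rw [Finset.sum_congr rfl (fun ω _ => hterm ω), Finset.sum_const, smul_eq_mul] at key
  have hcard : Fintype.card S = Y.ncard := by
    rw [← Nat.card_eq_fintype_card]
    exact Nat.card_coe_set_eq Y
  rw [hcard] at key
  rcases Set.eq_empty_or_nonempty Y with hYe | ⟨y, hy⟩
  · simp [hYe]
  · have hm : m ∣ Nat.card D := by
      rw [← hst y hy]
      exact Subgroup.card_dvd_of_le inf_le_left
    obtain ⟨j, hj⟩ := hm
    rw [key, hj]
    have hmpos : 0 < m := by
      rw [← hst y hy]; exact Nat.card_pos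
    rw [Nat.mul_div_cancel_left _ hmpos]
    exact ⟨Finset.card (Finset.univ : Finset (Quotient (orbitRel ↥D S))), by ring⟩

/-- Hypotheses: a finite permutation group all of whose two-point stabilizers have the same
order `m ≥ 2`, all point stabilizers of order `k * m`, with a regular normal subgroup `N`. -/
structure HT (G Ω : Type*) [Group G] [MulAction G Ω] (N : Subgroup G) (m k : ℕ) : Prop where
  two : ∀ a b : Ω, a ≠ b → Nat.card ↥(stabilizer G a ⊓ stabilizer G b) = m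
  one : ∀ a : Ω, Nat.card ↥(stabilizer G a) = k * m
  hm : 2 ≤ m
  faithful : ∀ g : G, (∀ x : Ω, g • x = x) → g = 1
  normal : N.Normal
  trans : ∀ a b : Ω, ∃ n ∈ N, n • a = b
  reg : ∀ n ∈ N, ∀ a : Ω, n • a = a → n = 1

namespace HT

variable {G Ω : Type*} [Group G] [Finite G] [MulAction G Ω] [Finite Ω] {N : Subgroup G}
  {m k : ℕ}

omit [Finite G] [Finite Ω] in
theorem inj (h : HT G Ω N m k) {u v : G} (hu : u ∈ N) (hv : v ∈ N) (a : Ω)
    (e : u • a = v • a) : u = v := by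
  have h1 : (v⁻¹ * u) • a = a := by rw [mul_smul, e, inv_smul_smul]
  have h2 := h.reg _ (N.mul_mem (N.inv_mem hv) hu) a h1
  exact (inv_mul_eq_one.mp h2).symm

omit [Finite G] [Finite Ω] in
theorem smul_conj {a : Ω} {c : G} (hc : c ∈ stabilizer G a) (u : G) :
    (c * u * c⁻¹) • a = c • (u • a) := by
  have h1 : c⁻¹ • a = a := by
    rw [inv_smul_eq_iff]; exact (mem_stabilizer_iff.mp hc).symm
  rw [mul_smul, mul_smul, h1]

omit [Finite G] [Finite Ω] in
theorem commute_iff (h : HT G Ω N m k) {a : Ω} {c x : G} (hc : c ∈ stabilizer G a)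
    (hx : x ∈ N) : c • (x • a) = x • a ↔ Commute c x := by
  constructor
  · intro e
    rw [← smul_conj hc] at e
    have := h.inj (h.normal.conj_mem x hx c) hx a e
    exact (mul_inv_eq_iff_eq_mul.mp this)
  · intro e
    rw [← mul_smul, e.eq, mul_smul, mem_stabilizer_iff.mp hc]

omit [Finite G] [Finite Ω] in
theorem m_pos (h : HT G Ω N m k) : 0 < m := by have := h.hm; omega

/-- The coprime orbit lemma. -/
theorem coprime_lemma (h : HT G Ω N m k) (β : Ω) (D : Subgroup G) (hD : D ≤ stabilizer G β)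
    (Y : Set Ω) (hβ : β ∉ Y) (hinv : ∀ d ∈ D, ∀ y ∈ Y, d • y ∈ Y)
    (hst : ∀ y ∈ Y, stabilizer G β ⊓ stabilizer G y ≤ D) (hcop : Nat.Coprime Y.ncard k) :
    ∀ y ∈ Y, D ≤ stabilizer G y := by
  have hE : ∀ y ∈ Y, D ⊓ stabilizer G y = stabilizer G β ⊓ stabilizer G y := by
    intro y hy
    exact le_antisymm (inf_le_inf_right _ hD) (le_inf (hst y hy) inf_le_right)
  have hne : ∀ y ∈ Y, β ≠ y := fun y hy e => hβ (e ▸ hy)
  have h1 : Nat.card D ∣ m * Y.ncard :=
    ht_dvd D Y (Set.toFinite Y) hinv (fun y hy => by rw [hE y hy]; exact h.two β y (hne y hy))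
  have h2 : Nat.card D ∣ m * k := by
    have := Subgroup.card_dvd_of_le hD
    rwa [h.one β, mul_comm] at this
  have h3 : Nat.card D ∣ m := by
    have := Nat.dvd_gcd h1 h2
    rwa [Nat.gcd_mul_left, hcop.gcd_eq_one, mul_one] at this
  intro y hy
  have h4 : stabilizer G β ⊓ stabilizer G y = D := by
    apply Subgroup.eq_of_le_of_card_ge (hst y hy)
    rw [h.two β y (hne y hy)]
    exact Nat.le_of_dvd h.m_pos h3
  rw [← h4]; exact inf_le_right

theorem k_dvd (h : HT G Ω N m k) (a : Ω) (Y : Set Ω) (ha : a ∉ Y)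
    (hinv : ∀ c ∈ stabilizer G a, ∀ y ∈ Y, c • y ∈ Y) : k ∣ Y.ncard := by
  have h1 : Nat.card (stabilizer G a) ∣ m * Y.ncard := by
    refine ht_dvd (stabilizer G a) Y (Set.toFinite Y) hinv (fun y hy => ?_)
    exact h.two a y (fun e => ha (e ▸ hy))
  rw [h.one a, mul_comm] at h1
  exact Nat.dvd_of_mul_dvd_mul_left h.m_pos h1

omit [Finite G] [Finite Ω] in
theorem ncard_image (h : HT G Ω N m k) (a : Ω) (M : Subgroup G) (hMN : M ≤ N) :
    ((fun u : G => u • a) '' (M : Set G)).ncard = Nat.card M := by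
  have hinj : Set.InjOn (fun u : G => u • a) (M : Set G) := by
    intro u hu v hv e
    exact h.inj (hMN hu) (hMN hv) a e
  rw [hinj.ncard_image, ← Nat.card_coe_set_eq]; rfl

theorem coprime_card (h : HT G Ω N m k) (a : Ω) (M : Subgroup G) (hMN : M ≤ N)
    (hMA : ∀ c ∈ stabilizer G a, ∀ u ∈ M, c * u * c⁻¹ ∈ M) : Nat.Coprime (Nat.card M) k := by
  set ψ : Set Ω := (fun u : G => u • a) '' (M : Set G) with hψ
  have haψ : a ∈ ψ := ⟨1, M.one_mem, one_smul _ _⟩
  have h1 : k ∣ (ψ \ {a}).ncard := by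
    refine h.k_dvd a _ (fun hh => hh.2 rfl) ?_
    rintro c hc y ⟨⟨u, hu, rfl⟩, hy⟩
    refine ⟨⟨c * u * c⁻¹, hMA c hc u hu, smul_conj hc u⟩, ?_⟩
    intro e
    apply hy
    have e' : c • (u • a) = a := e
    have e2 : u • a = c⁻¹ • a := by
      rw [eq_inv_smul_iff]; exact e'
    have e3 : c⁻¹ • a = a := by
      rw [inv_smul_eq_iff]; exact (mem_stabilizer_iff.mp hc).symm
    show u • a = a
    rw [e2, e3]
  rw [Set.ncard_sdiff_singleton_of_mem haψ, h.ncard_image a M hMN] at h1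
  have hpos : 0 < Nat.card M := Nat.card_pos
  obtain ⟨j, hj⟩ : ∃ j, Nat.card M = j + 1 := ⟨Nat.card M - 1, by omega⟩
  rw [hj] at h1 ⊢
  simp only [Nat.add_sub_cancel] at h1
  exact Nat.Coprime.coprime_dvd_right h1 (by simp)

/-- Wielandt: a proper nontrivial subgroup of `N` is not normalized by a point stabilizer. -/
theorem no_invariant (h : HT G Ω N m k) (a : Ω) (M : Subgroup G) (hMN : M ≤ N)
    (hMA : ∀ c ∈ stabilizer G a, ∀ u ∈ M, c * u * c⁻¹ ∈ M) : M = ⊥ ∨ M = N := by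
  by_contra hcon
  push Not at hcon
  obtain ⟨hbot, htop⟩ := hcon
  set ψ : Set Ω := (fun u : G => u • a) '' (M : Set G) with hψ
  have haψ : a ∈ ψ := ⟨1, M.one_mem, one_smul _ _⟩
  have hcop : Nat.Coprime ψ.ncard k := by
    rw [h.ncard_image a M hMN]; exact h.coprime_card a M hMN hMA
  obtain ⟨v, hvN, hvM⟩ : ∃ v ∈ N, v ∉ M := by
    by_contra hc; push Not at hc; exact htop (le_antisymm hMN hc)
  have hβ : v • a ∉ ψ := by
    rintro ⟨u, hu, e⟩
    exact hvM ((h.inj (hMN hu) hvN a e) ▸ hu)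
  obtain ⟨u₁, hu₁, hu₁1⟩ : ∃ u ∈ M, u ≠ 1 := by
    by_contra hc; push Not at hc; exact hbot ((Subgroup.eq_bot_iff_forall _).mpr hc)
  have hy₁ : u₁ • a ≠ a := fun e => hu₁1 (h.reg u₁ (hMN hu₁) a e)
  have hy₁ψ : u₁ • a ∈ ψ := ⟨u₁, hu₁, rfl⟩
  have hstab : ∀ y ∈ ψ, ∀ c ∈ stabilizer G y, ∀ z ∈ ψ, c • z ∈ ψ := by
    rintro _ ⟨u, hu, rfl⟩ c hc _ ⟨w, hw, rfl⟩
    have hc1 : c • (u • a) = u • a := mem_stabilizer_iff.mp hc
    have hc' : u⁻¹ * c * u ∈ stabilizer G a := by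
      rw [mem_stabilizer_iff, mul_smul, mul_smul, hc1, inv_smul_smul]
    refine ⟨u * ((u⁻¹ * c * u) * (u⁻¹ * w) * (u⁻¹ * c * u)⁻¹),
      M.mul_mem hu (hMA _ hc' _ (M.mul_mem (M.inv_mem hu) hw)), ?_⟩
    show (u * ((u⁻¹ * c * u) * (u⁻¹ * w) * (u⁻¹ * c * u)⁻¹)) • a = c • (w • a)
    rw [mul_smul, smul_conj hc', ← mul_smul, ← mul_smul, ← mul_smul]
    congr 1; group
  have hset : ∀ y ∈ ψ, stabilizer G y ≤ stabilizer G ψ := by
    intro y hy c hc
    rw [mem_stabilizer_set_iff_smul_set_subset (Set.toFinite ψ)]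
    rintro _ ⟨z, hz, rfl⟩
    exact hstab y hy c hc z hz
  have key : ∀ β, β ∉ ψ → ∀ y ∈ ψ, stabilizer G β ⊓ stabilizer G a ≤ stabilizer G y := by
    intro β hβ y hy
    have hD := h.coprime_lemma β (stabilizer G β ⊓ stabilizer G ψ) inf_le_left ψ hβ
      (fun d hd z hz => ((mem_stabilizer_set.mp hd.2) z).mpr hz)
      (fun z hz => inf_le_inf_left _ (hset z hz)) hcop y hy
    exact le_trans (inf_le_inf_left _ (hset a haψ)) hD
  have hE : ∀ g ∈ stabilizer G a ⊓ stabilizer G (u₁ • a), ∀ ω : Ω, g • ω = ω := by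
    intro g hg ω
    by_cases hω : ω ∈ ψ
    · have h1 : stabilizer G (v • a) ⊓ stabilizer G a = stabilizer G a ⊓ stabilizer G (u₁ • a) := by
        apply Subgroup.eq_of_le_of_card_ge (le_inf inf_le_right (key _ hβ _ hy₁ψ))
        rw [h.two _ _ (fun e => hy₁ e.symm), h.two _ _ (fun e => hβ (by rw [e]; exact haψ))]
      rw [← h1] at hg
      exact mem_stabilizer_iff.mp (key _ hβ ω hω hg)
    · have h1 : stabilizer G ω ⊓ stabilizer G a = stabilizer G a ⊓ stabilizer G (u₁ • a) := by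
        apply Subgroup.eq_of_le_of_card_ge (le_inf inf_le_right (key _ hω _ hy₁ψ))
        rw [h.two _ _ (fun e => hy₁ e.symm), h.two _ _ (fun e => hω (by rw [e]; exact haψ))]
      rw [← h1] at hg
      exact mem_stabilizer_iff.mp hg.1
  have hbot2 : stabilizer G a ⊓ stabilizer G (u₁ • a) = ⊥ := by
    rw [Subgroup.eq_bot_iff_forall]
    intro g hg
    exact h.faithful g (hE g hg)
  have := h.two a (u₁ • a) (fun e => hy₁ e.symm)
  rw [hbot2, Subgroup.card_bot] at this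
  have := h.hm
  omega

/-- Conjugacy classes of `N` are fixed pointwise by the stabilizer of one of their elements. -/
theorem commute_conj (h : HT G Ω N m k) (a : Ω) {x b g : G} (hx : x ∈ N) (hx1 : x ≠ 1)
    (hb : b ∈ stabilizer G a) (hbx : Commute b x) (hg : g ∈ N) :
    Commute b (g * x * g⁻¹) := by
  have := h.normal
  set E : Set G := {y | ∃ t ∈ N, y = t * x * t⁻¹} with hE
  have hEN : ∀ y ∈ E, y ∈ N := by
    rintro _ ⟨t, ht, rfl⟩; exact h.normal.conj_mem x hx t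
  have hE1 : ∀ y ∈ E, y ≠ 1 := by
    rintro _ ⟨t, ht, rfl⟩ e
    apply hx1
    simpa using e
  set Y : Set Ω := (fun y : G => y • a) '' E with hY
  have haY : a ∉ Y := by
    rintro ⟨y, hy, e⟩
    exact hE1 y hy (h.reg y (hEN y hy) a e)
  have hDE : ∀ c ∈ stabilizer G a ⊓ (N ⊔ Subgroup.centralizer {x}), ∀ y ∈ E,
      c * y * c⁻¹ ∈ E := by
    rintro c ⟨hcA, hc⟩ _ ⟨t, ht, rfl⟩
    obtain ⟨n, hn, z, hz, rfl⟩ := Subgroup.mem_sup_of_normal_left.mp hc
    have hzx : x * z = z * x := (Subgroup.mem_centralizer_iff.mp hz) x rfl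
    have hzx' : z * x * z⁻¹ = x := by rw [← hzx, mul_inv_cancel_right]
    refine ⟨(n * z) * t * (n * z)⁻¹ * n, N.mul_mem (h.normal.conj_mem t ht _) hn, ?_⟩
    conv_rhs => rw [← hzx']
    group
  have hinv : ∀ d ∈ stabilizer G a ⊓ (N ⊔ Subgroup.centralizer {x}), ∀ y ∈ Y, d • y ∈ Y := by
    rintro d hd _ ⟨e, he, rfl⟩
    exact ⟨d * e * d⁻¹, hDE d hd e he, smul_conj hd.1 e⟩
  have hst : ∀ y ∈ Y, stabilizer G a ⊓ stabilizer G y ≤
      stabilizer G a ⊓ (N ⊔ Subgroup.centralizer {x}) := by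
    rintro _ ⟨_, ⟨t, ht, rfl⟩, rfl⟩ c ⟨hcA, hc⟩
    refine ⟨hcA, ?_⟩
    have hce : Commute c (t * x * t⁻¹) :=
      (h.commute_iff hcA (h.normal.conj_mem x hx t)).mp (mem_stabilizer_iff.mp hc)
    have hz : t⁻¹ * c * t ∈ Subgroup.centralizer {x} := by
      rw [Subgroup.mem_centralizer_iff]
      intro y hy
      rw [Set.mem_singleton_iff.mp hy]
      have e := hce.eq
      calc x * (t⁻¹ * c * t) = t⁻¹ * ((t * x * t⁻¹) * c) * t := by group
        _ = t⁻¹ * (c * (t * x * t⁻¹)) * t := by rw [e]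
        _ = t⁻¹ * c * t * x := by group
    have hn : t * ((t⁻¹ * c * t) * t⁻¹ * (t⁻¹ * c * t)⁻¹) ∈ N :=
      N.mul_mem ht (h.normal.conj_mem _ (N.inv_mem ht) _)
    have : c = t * ((t⁻¹ * c * t) * t⁻¹ * (t⁻¹ * c * t)⁻¹) * (t⁻¹ * c * t) := by group
    rw [this]
    exact Subgroup.mul_mem_sup hn hz
  have hEdvd : E.ncard ∣ Nat.card N := by
    let act : MulAction ↥N G :=
      MulAction.compHom G ((MulAut.conj : G →* MulAut G).comp N.subtype)
    have h1 : E = orbit ↥N x := by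
      ext y; constructor
      · rintro ⟨t, ht, rfl⟩; exact ⟨⟨t, ht⟩, rfl⟩
      · rintro ⟨t, rfl⟩; exact ⟨t.1, t.2, rfl⟩
    rw [h1, ← Nat.card_coe_set_eq, Nat.card_congr (orbitEquivQuotientStabilizer ↥N x)]
    exact Subgroup.card_quotient_dvd_card _
  have hcop : Nat.Coprime Y.ncard k := by
    have hinj : Set.InjOn (fun y : G => y • a) E := by
      intro u hu v hv e
      exact h.inj (hEN u hu) (hEN v hv) a e
    rw [hY, hinj.ncard_image]
    exact Nat.Coprime.coprime_dvd_left hEdvd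
      (h.coprime_card a N le_rfl (fun c _ u hu => h.normal.conj_mem u hu c))
  have hfin := h.coprime_lemma a (stabilizer G a ⊓ (N ⊔ Subgroup.centralizer {x})) inf_le_left
    Y haY hinv hst hcop ((g * x * g⁻¹) • a) ⟨_, ⟨g, hg, rfl⟩, rfl⟩
  have hbD : b ∈ stabilizer G a ⊓ (N ⊔ Subgroup.centralizer {x}) := by
    refine ⟨hb, Subgroup.mem_sup_right ?_⟩
    rw [Subgroup.mem_centralizer_iff]
    intro y hy
    rw [Set.mem_singleton_iff.mp hy]
    exact hbx.eq.symm
  exact (h.commute_iff hb (h.normal.conj_mem x hx g)).mp (mem_stabilizer_iff.mp (hfin hbD))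

/-- Every nontrivial element of `N` centralizes, together with its `N`-conjugates, a nontrivial
element of `N`. -/
theorem exists_central (h : HT G Ω N m k) (a : Ω) {x : G} (hx : x ∈ N) (hx1 : x ≠ 1) :
    ∃ w ∈ N, w ≠ 1 ∧ ∀ t ∈ N, Commute w (t * x * t⁻¹) := by
  have hxa : x • a ≠ a := fun e => hx1 (h.reg x hx a e)
  obtain ⟨b, hb, hb1⟩ : ∃ b ∈ stabilizer G a ⊓ stabilizer G (x • a), b ≠ 1 := by
    by_contra hc; push Not at hc
    have h1 : stabilizer G a ⊓ stabilizer G (x • a) = ⊥ := (Subgroup.eq_bot_iff_forall _).mpr hc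
    have h2 := h.two a (x • a) (fun e => hxa e.symm)
    rw [h1, Subgroup.card_bot] at h2
    have := h.hm; omega
  have hbx : Commute b x := (h.commute_iff hb.1 hx).mp (mem_stabilizer_iff.mp hb.2)
  obtain ⟨ω, hω⟩ : ∃ ω : Ω, b • ω ≠ ω := by
    by_contra hc; push Not at hc; exact hb1 (h.faithful b hc)
  obtain ⟨g, hg, rfl⟩ := h.trans a ω
  have hbg : ¬ Commute b g := fun e => hω ((h.commute_iff hb.1 hg).mpr e)
  refine ⟨g⁻¹ * b * g * b⁻¹, ?_, ?_, ?_⟩
  · have e : g⁻¹ * b * g * b⁻¹ = g⁻¹ * (b * g * b⁻¹) := by group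
    rw [e]; exact N.mul_mem (N.inv_mem hg) (h.normal.conj_mem g hg b)
  · intro e; apply hbg
    have e2 : b * g = g * b := by
      have := congrArg (fun z => g * z * b) e
      simpa [mul_assoc] using this
    exact e2
  · intro t ht
    have h1 : Commute b (t * x * t⁻¹) := h.commute_conj a hx hx1 hb.1 hbx ht
    have h2 : Commute b (g * (t * x * t⁻¹) * g⁻¹) := by
      have := h.commute_conj a hx hx1 hb.1 hbx (N.mul_mem hg ht)
      have e : g * t * x * (g * t)⁻¹ = g * (t * x * t⁻¹) * g⁻¹ := by group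
      rwa [e] at this
    have h3 : Commute (g⁻¹ * b * g) (t * x * t⁻¹) := by
      have e2 := h2.eq
      show g⁻¹ * b * g * (t * x * t⁻¹) = (t * x * t⁻¹) * (g⁻¹ * b * g)
      calc g⁻¹ * b * g * (t * x * t⁻¹) = g⁻¹ * (b * (g * (t * x * t⁻¹) * g⁻¹)) * g := by group
        _ = g⁻¹ * ((g * (t * x * t⁻¹) * g⁻¹) * b) * g := by rw [e2]
        _ = (t * x * t⁻¹) * (g⁻¹ * b * g) := by group
    exact h3.mul_left h1.inv_left

end HT

/-- `T` is a nontrivial subgroup of `N` normalized by `N`. -/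
def NN {G : Type*} [Group G] (N T : Subgroup G) : Prop :=
  T ≤ N ∧ T ≠ ⊥ ∧ ∀ t ∈ N, ∀ u ∈ T, t * u * t⁻¹ ∈ T

theorem exists_min_NN {G : Type*} [Group G] [Finite G] {N T₀ : Subgroup G} (h0 : NN N T₀) :
    ∃ T, NN N T ∧ T ≤ T₀ ∧ ∀ T', NN N T' → T' ≤ T → T' = T := by
  obtain ⟨T, hT⟩ := exists_minimal_of_wellFoundedLT (fun T => NN N T ∧ T ≤ T₀) ⟨T₀, h0, le_rfl⟩
  exact ⟨T, hT.1.1, hT.1.2, fun T' h' hle =>
    le_antisymm hle (hT.2 ⟨h', hle.trans hT.1.2⟩ hle)⟩

theorem min_NN_commute {G : Type*} [Group G] {N T₁ T₂ : Subgroup G} (h1 : NN N T₁)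
    (h2 : NN N T₂) (m1 : ∀ T', NN N T' → T' ≤ T₁ → T' = T₁)
    (m2 : ∀ T', NN N T' → T' ≤ T₂ → T' = T₂) :
    T₁ = T₂ ∨ ∀ s ∈ T₁, ∀ t ∈ T₂, Commute s t := by
  by_cases hb : T₁ ⊓ T₂ = ⊥
  · right; intro s hs t ht
    have hmem : s * t * s⁻¹ * t⁻¹ ∈ T₁ ⊓ T₂ := by
      constructor
      · have e : s * t * s⁻¹ * t⁻¹ = s * (t * s⁻¹ * t⁻¹) := by group
        rw [e]; exact T₁.mul_mem hs (h1.2.2 t (h2.1 ht) _ (T₁.inv_mem hs))
      · exact T₂.mul_mem (h2.2.2 s (h1.1 hs) _ ht) (T₂.inv_mem ht)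
    rw [hb, Subgroup.mem_bot] at hmem
    have e : s * t = t * s := by
      have := congrArg (fun z => z * t * s) hmem
      simpa [mul_assoc] using this
    exact e
  · left
    have hNN : NN N (T₁ ⊓ T₂) := ⟨inf_le_left.trans h1.1, hb,
      fun t ht u hu => ⟨h1.2.2 t ht u hu.1, h2.2.2 t ht u hu.2⟩⟩
    exact (m1 _ hNN inf_le_left).symm.trans (m2 _ hNN inf_le_right)

/-- Conjugates of `N`-normal subgroups of `N`. -/
theorem NN.conj {G : Type*} [Group G] {N T : Subgroup G} (hN : N.Normal) (hT : NN N T)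
    (c : G) : NN N (T.map (MulAut.conj c).toMonoidHom) := by
  refine ⟨?_, ?_, ?_⟩
  · rintro _ ⟨t, ht, rfl⟩
    exact hN.conj_mem t (hT.1 ht) c
  · obtain ⟨t, ht, ht1⟩ : ∃ t ∈ T, t ≠ 1 := by
      by_contra hc; push Not at hc; exact hT.2.1 ((Subgroup.eq_bot_iff_forall _).mpr hc)
    intro hbot
    have hmem : c * t * c⁻¹ ∈ T.map (MulAut.conj c).toMonoidHom := ⟨t, ht, rfl⟩
    rw [hbot, Subgroup.mem_bot] at hmem
    apply ht1
    simpa using hmem
  · rintro n hn _ ⟨t, ht, rfl⟩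
    refine ⟨(c⁻¹ * n * c) * t * (c⁻¹ * n * c)⁻¹, hT.2.2 _ (hN.conj_mem' n hn c) t ht, ?_⟩
    show c * ((c⁻¹ * n * c) * t * (c⁻¹ * n * c)⁻¹) * c⁻¹ = n * (c * t * c⁻¹) * n⁻¹
    group

theorem NN.conj_min {G : Type*} [Group G] {N T : Subgroup G} (hN : N.Normal) (_hT : NN N T)
    (hmin : ∀ T', NN N T' → T' ≤ T → T' = T) (c : G) :
    ∀ T', NN N T' → T' ≤ T.map (MulAut.conj c).toMonoidHom →
      T' = T.map (MulAut.conj c).toMonoidHom := by
  intro T' hT' hle
  have h1 : T'.map (MulAut.conj c⁻¹).toMonoidHom ≤ T := by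
    rintro _ ⟨u, hu, rfl⟩
    obtain ⟨t, ht, e⟩ := hle hu
    have e' : c * t * c⁻¹ = u := e
    show c⁻¹ * u * c⁻¹⁻¹ ∈ T
    rw [← e']
    have : c⁻¹ * (c * t * c⁻¹) * c⁻¹⁻¹ = t := by group
    rw [this]; exact ht
  have h2 := hmin _ (hT'.conj hN c⁻¹) h1
  apply le_antisymm hle
  rintro _ ⟨t, ht, rfl⟩
  rw [← h2] at ht
  obtain ⟨u, hu, e⟩ := ht
  have e' : c⁻¹ * u * c⁻¹⁻¹ = t := e
  show c * t * c⁻¹ ∈ T'
  rw [← e']
  have : c * (c⁻¹ * u * c⁻¹⁻¹) * c⁻¹ = u := by group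
  rw [this]; exact hu

namespace HT

variable {G Ω : Type*} [Group G] [Finite G] [MulAction G Ω] [Finite Ω] {N : Subgroup G}
  {m k : ℕ}

/-- If `N` is not abelian, its centre is trivial. -/
theorem center_trivial (h : HT G Ω N m k) (a : Ω) (hnab : ¬ ∀ x ∈ N, ∀ y ∈ N, Commute x y)
    {z : G} (hz : z ∈ N) (hzc : ∀ y ∈ N, Commute z y) : z = 1 := by
  have hinvZ := h.no_invariant a (N ⊓ Subgroup.centralizer (N : Set G)) inf_le_left (by
    rintro c hc u ⟨huN, huC⟩
    refine ⟨h.normal.conj_mem u huN c, ?_⟩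
    intro v hv
    have hv' := huC (c⁻¹ * v * c) (h.normal.conj_mem' v hv c)
    calc v * (c * u * c⁻¹) = c * ((c⁻¹ * v * c) * u) * c⁻¹ := by group
      _ = c * (u * (c⁻¹ * v * c)) * c⁻¹ := by rw [hv']
      _ = c * u * c⁻¹ * v := by group)
  rcases hinvZ with h1 | h1
  · have hmem : z ∈ N ⊓ Subgroup.centralizer (N : Set G) :=
      ⟨hz, fun y hy => (hzc y hy).eq.symm⟩
    rw [h1] at hmem; exact Subgroup.mem_bot.mp hmem
  · exfalso; apply hnab; intro x hx y hy
    have hmem : x ∈ N ⊓ Subgroup.centralizer (N : Set G) := by rw [h1]; exact hx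
    exact (hmem.2 y hy).symm

/-- If `N` is not abelian, its minimal normal subgroups are not abelian. -/
theorem min_nonabelian (h : HT G Ω N m k) (a : Ω) (hnab : ¬ ∀ x ∈ N, ∀ y ∈ N, Commute x y)
    {T : Subgroup G} (hT : NN N T) (hmin : ∀ T', NN N T' → T' ≤ T → T' = T) :
    ∃ t ∈ T, ∃ u ∈ T, ¬ Commute t u := by
  by_contra hab; push Not at hab
  apply hnab
  set gen : Set G := {y | ∃ c ∈ stabilizer G a, ∃ t ∈ T, y = c * t * c⁻¹} with hgen
  have hgenN : gen ⊆ N := by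
    rintro _ ⟨c, hc, t, ht, rfl⟩; exact h.normal.conj_mem t (hT.1 ht) c
  have hTgen : (T : Set G) ⊆ gen := fun t ht => ⟨1, Subgroup.one_mem _, t, ht, by simp⟩
  have hR := h.no_invariant a (Subgroup.closure gen) ((Subgroup.closure_le N).mpr hgenN) (by
    intro c hc u hu
    induction hu using Subgroup.closure_induction with
    | mem y hy =>
      obtain ⟨c', hc', t, ht, rfl⟩ := hy
      apply Subgroup.subset_closure
      exact ⟨c * c', Subgroup.mul_mem _ hc hc', t, ht, by group⟩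
    | one => simp
    | mul x y _ _ hx hy =>
      have e : c * (x * y) * c⁻¹ = (c * x * c⁻¹) * (c * y * c⁻¹) := by group
      rw [e]; exact Subgroup.mul_mem _ hx hy
    | inv x _ hx =>
      have e : c * x⁻¹ * c⁻¹ = (c * x * c⁻¹)⁻¹ := by group
      rw [e]; exact Subgroup.inv_mem _ hx)
  have hRN : Subgroup.closure gen = N := by
    rcases hR with h1 | h1
    · exfalso
      apply hT.2.1
      rw [eq_bot_iff, ← h1]
      exact fun t ht => Subgroup.subset_closure (hTgen ht)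
    · exact h1
  have hcomm : ∀ y ∈ gen, ∀ y' ∈ gen, y' * y = y * y' := by
    rintro _ ⟨c, hc, t, ht, rfl⟩ _ ⟨c', hc', t', ht', rfl⟩
    rcases min_NN_commute (hT.conj h.normal c) (hT.conj h.normal c')
      (hT.conj_min h.normal hmin c) (hT.conj_min h.normal hmin c') with h1 | h1
    · have hmem : c' * t' * c'⁻¹ ∈ T.map (MulAut.conj c).toMonoidHom := by
        rw [h1]; exact ⟨t', ht', rfl⟩
      obtain ⟨t'', ht'', e⟩ := hmem
      have e' : c * t'' * c⁻¹ = c' * t' * c'⁻¹ := e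
      rw [← e']
      have e2 := (hab t'' ht'' t ht).eq
      calc c * t'' * c⁻¹ * (c * t * c⁻¹) = c * (t'' * t) * c⁻¹ := by group
        _ = c * (t * t'') * c⁻¹ := by rw [e2]
        _ = c * t * c⁻¹ * (c * t'' * c⁻¹) := by group
    · exact (h1 _ ⟨t, ht, rfl⟩ _ ⟨t', ht', rfl⟩).eq.symm
  have h1 : Subgroup.closure gen ≤ Subgroup.centralizer gen := by
    rw [Subgroup.closure_le]
    intro y hy
    rw [SetLike.mem_coe, Subgroup.mem_centralizer_iff]
    intro y' hy'
    exact hcomm y hy y' hy'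
  have h2 : Subgroup.closure gen ≤ Subgroup.centralizer (Subgroup.closure gen : Set G) := by
    rw [Subgroup.centralizer_closure]; exact h1
  intro x hx y hy
  rw [← hRN] at hx hy
  exact (h2 hx y hy).symm

/-- Isaacs–Passman: the regular normal subgroup is abelian. -/
theorem abelian (h : HT G Ω N m k) (a : Ω) : ∀ x ∈ N, ∀ y ∈ N, Commute x y := by
  by_contra hnab
  have hNN : ∀ x ∈ N, x ≠ 1 →
      NN N (N ⊓ Subgroup.centralizer {y | ∃ t ∈ N, y = t * x * t⁻¹}) := by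
    intro x hx hx1
    refine ⟨inf_le_left, ?_, ?_⟩
    · obtain ⟨w, hw, hw1, hwc⟩ := h.exists_central a hx hx1
      intro hbot
      have hmem : w ∈ N ⊓ Subgroup.centralizer {y | ∃ t ∈ N, y = t * x * t⁻¹} := by
        refine Subgroup.mem_inf.mpr ⟨hw, ?_⟩
        rw [Subgroup.mem_centralizer_iff]
        rintro _ ⟨t, ht, rfl⟩
        exact (hwc t ht).eq.symm
      rw [hbot, Subgroup.mem_bot] at hmem
      exact hw1 hmem
    · intro n hn w hw
      obtain ⟨hwN, hwC⟩ := Subgroup.mem_inf.mp hw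
      refine Subgroup.mem_inf.mpr ⟨h.normal.conj_mem w hwN n, ?_⟩
      rw [Subgroup.mem_centralizer_iff] at hwC ⊢
      rintro _ ⟨s, hs, rfl⟩
      have e := hwC ((n⁻¹ * s) * x * (n⁻¹ * s)⁻¹) ⟨n⁻¹ * s, N.mul_mem (N.inv_mem hn) hs, rfl⟩
      calc s * x * s⁻¹ * (n * w * n⁻¹) = n * ((n⁻¹ * s) * x * (n⁻¹ * s)⁻¹ * w) * n⁻¹ := by group
        _ = n * (w * ((n⁻¹ * s) * x * (n⁻¹ * s)⁻¹)) * n⁻¹ := by rw [e]
        _ = n * w * n⁻¹ * (s * x * s⁻¹) := by group
  obtain ⟨x₀, hx₀, hx₀1⟩ : ∃ x ∈ N, x ≠ 1 := by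
    by_contra hc; push Not at hc
    apply hnab
    intro x hx y hy
    rw [hc x hx, hc y hy]
  obtain ⟨x, ⟨hx, hx1⟩, hxmin⟩ := exists_minimalFor_of_wellFoundedLT
    (fun x : G => x ∈ N ∧ x ≠ 1)
    (fun x => Nat.card ↥(N ⊓ Subgroup.centralizer {y | ∃ t ∈ N, y = t * x * t⁻¹}))
    ⟨x₀, hx₀, hx₀1⟩
  obtain ⟨T, hT, hTle, hTmin⟩ := exists_min_NN (hNN x hx hx1)
  obtain ⟨t, ht, u, hu, htu⟩ := h.min_nonabelian a hnab hT hTmin
  have hxT : ∀ s ∈ T, s * x = x * s := by
    intro s hs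
    have h1 := (Subgroup.mem_inf.mp (hTle hs)).2
    rw [Subgroup.mem_centralizer_iff] at h1
    exact (h1 x ⟨1, N.one_mem, by simp⟩).symm
  have hx'N : x * t ∈ N := N.mul_mem hx (hT.1 ht)
  have hx'1 : x * t ≠ 1 := by
    intro e
    apply htu
    have e2 : t = x⁻¹ := by
      rw [eq_inv_iff_mul_eq_one, ← e]
      exact hxT t ht
    rw [e2]
    have : Commute u x := hxT u hu
    exact this.symm.inv_left
  -- the commutator lies in the normal closure of `x * t`
  have hv : u * t * u⁻¹ * t⁻¹ ∈ T := T.mul_mem (T.mul_mem (T.mul_mem hu ht) (T.inv_mem hu))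
    (T.inv_mem ht)
  have hv1 : u * t * u⁻¹ * t⁻¹ ≠ 1 := by
    intro e
    apply htu
    have e2 : u * t = t * u := by
      have := congrArg (fun z => z * t * u) e
      simpa [mul_assoc] using this
    exact e2.symm
  set cls : Set G := {y | ∃ s ∈ N, y = s * (x * t) * s⁻¹} with hcls
  have hclsinv : ∀ n ∈ N, ∀ y ∈ Subgroup.closure cls, n * y * n⁻¹ ∈ Subgroup.closure cls := by
    intro n hn y hy
    induction hy using Subgroup.closure_induction with
    | mem y hy =>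
      obtain ⟨s, hs, rfl⟩ := hy
      apply Subgroup.subset_closure
      exact ⟨n * s, N.mul_mem hn hs, by group⟩
    | one => simp
    | mul y z _ _ hy hz =>
      have e : n * (y * z) * n⁻¹ = (n * y * n⁻¹) * (n * z * n⁻¹) := by group
      rw [e]; exact Subgroup.mul_mem _ hy hz
    | inv y _ hy =>
      have e : n * y⁻¹ * n⁻¹ = (n * y * n⁻¹)⁻¹ := by group
      rw [e]; exact Subgroup.inv_mem _ hy
  have hx'S : x * t ∈ Subgroup.closure cls :=
    Subgroup.subset_closure ⟨1, N.one_mem, by simp⟩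
  have hvS : u * t * u⁻¹ * t⁻¹ ∈ Subgroup.closure cls := by
    have e1 : u * x = x * u := hxT u hu
    have e2 : (u * t * u⁻¹ * t⁻¹) * x = x * (u * t * u⁻¹ * t⁻¹) := hxT _ hv
    have e3 : u * (x * t) * u⁻¹ * (x * t)⁻¹ = u * t * u⁻¹ * t⁻¹ := by
      calc u * (x * t) * u⁻¹ * (x * t)⁻¹ = (u * x) * (t * u⁻¹ * t⁻¹) * x⁻¹ := by group
        _ = (x * u) * (t * u⁻¹ * t⁻¹) * x⁻¹ := by rw [e1]
        _ = (x * (u * t * u⁻¹ * t⁻¹)) * x⁻¹ := by group
        _ = ((u * t * u⁻¹ * t⁻¹) * x) * x⁻¹ := by rw [e2]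
        _ = u * t * u⁻¹ * t⁻¹ := by group
    rw [← e3]
    exact Subgroup.mul_mem _ (hclsinv u (hT.1 hu) _ hx'S) (Subgroup.inv_mem _ hx'S)
  have hTS : T ≤ Subgroup.closure cls := by
    have hNN2 : NN N (Subgroup.closure cls ⊓ T) := by
      refine ⟨inf_le_right.trans hT.1, ?_, fun n hn y hy =>
        ⟨hclsinv n hn y hy.1, hT.2.2 n hn y hy.2⟩⟩
      intro hbot
      have hmem : u * t * u⁻¹ * t⁻¹ ∈ Subgroup.closure cls ⊓ T := ⟨hvS, hv⟩
      rw [hbot, Subgroup.mem_bot] at hmem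
      exact hv1 hmem
    have := hTmin _ hNN2 inf_le_right
    rw [← this]; exact inf_le_left
  have hxS : x ∈ Subgroup.closure cls := by
    have e : x = (x * t) * t⁻¹ := by group
    rw [e]; exact Subgroup.mul_mem _ hx'S (Subgroup.inv_mem _ (hTS ht))
  have hle : N ⊓ Subgroup.centralizer {y | ∃ s ∈ N, y = s * (x * t) * s⁻¹} ≤
      N ⊓ Subgroup.centralizer {y | ∃ s ∈ N, y = s * x * s⁻¹} := by
    refine inf_le_inf_left _ ?_
    rw [← Subgroup.centralizer_closure]
    apply Subgroup.centralizer_le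
    rintro _ ⟨s, hs, rfl⟩
    exact hclsinv s hs x hxS
  have hcard := hxmin ⟨hx'N, hx'1⟩ (Subgroup.card_le_of_le hle)
  have heq := Subgroup.eq_of_le_of_card_ge hle hcard
  have humem : u ∈ N ⊓ Subgroup.centralizer {y | ∃ s ∈ N, y = s * (x * t) * s⁻¹} := by
    rw [heq]; exact hTle hu
  have hu2 := (Subgroup.mem_inf.mp humem).2
  rw [← Subgroup.centralizer_closure, Subgroup.mem_centralizer_iff] at hu2
  exact htu (hu2 t (hTS ht))

omit [Finite G] [Finite Ω] in
/-- Nontrivial elements of `N` exist. -/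
theorem exists_ne_one (h : HT G Ω N m k) (a : Ω) : ∃ g ∈ N, g ≠ 1 := by
  obtain ⟨b, hb, hb1⟩ : ∃ b ∈ stabilizer G a, b ≠ 1 := by
    by_contra hc; push Not at hc
    have h1 : stabilizer G a = ⊥ := (Subgroup.eq_bot_iff_forall _).mpr hc
    have h2 := h.one a
    rw [h1, Subgroup.card_bot] at h2
    have := h.hm
    have hk : k = 1 ∧ m = 1 := by
      have := Nat.eq_one_of_mul_eq_one_left h2.symm
      have := Nat.eq_one_of_mul_eq_one_right h2.symm
      omega
    omega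
  obtain ⟨ω, hω⟩ : ∃ ω : Ω, b • ω ≠ ω := by
    by_contra hc; push Not at hc; exact hb1 (h.faithful b hc)
  obtain ⟨g, hg, rfl⟩ := h.trans a ω
  refine ⟨g, hg, ?_⟩
  rintro rfl
  apply hω
  rw [one_smul]; exact mem_stabilizer_iff.mp hb

/-- The regular normal subgroup has prime exponent. -/
theorem exponent (h : HT G Ω N m k) (a : Ω) : ∃ p : ℕ, p.Prime ∧ ∀ x ∈ N, x ^ p = 1 := by
  have hab := h.abelian a
  obtain ⟨g, hg, hg1⟩ := h.exists_ne_one a
  have hog : orderOf g ≠ 1 := fun e => hg1 (orderOf_eq_one_iff.mp e)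
  have hp : (orderOf g).minFac.Prime := Nat.minFac_prime hog
  set p := (orderOf g).minFac with hpdef
  refine ⟨p, hp, ?_⟩
  let M : Subgroup G :=
    { carrier := {x | x ∈ N ∧ x ^ p = 1}
      mul_mem' := fun {x y} hx hy => ⟨N.mul_mem hx.1 hy.1, by
        rw [(hab x hx.1 y hy.1).mul_pow, hx.2, hy.2, one_mul]⟩
      one_mem' := ⟨N.one_mem, one_pow _⟩
      inv_mem' := fun {x} hx => ⟨N.inv_mem hx.1, by rw [inv_pow, hx.2, inv_one]⟩ }
  have hM := h.no_invariant a M (fun x hx => hx.1) (by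
    intro c hc u hu
    exact ⟨h.normal.conj_mem u hu.1 c, by rw [conj_pow, hu.2]; simp⟩)
  have hpos : 0 < orderOf g := orderOf_pos g
  have hdvd : p ∣ orderOf g := Nat.minFac_dvd _
  rcases hM with h1 | h1
  · exfalso
    have hmem : g ^ (orderOf g / p) ∈ M := by
      refine ⟨N.pow_mem hg _, ?_⟩
      rw [← pow_mul, Nat.div_mul_cancel hdvd, pow_orderOf_eq_one]
    rw [h1, Subgroup.mem_bot] at hmem
    have hlt : orderOf g / p < orderOf g := Nat.div_lt_self hpos hp.one_lt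
    have hne : orderOf g / p ≠ 0 := by
      have := Nat.div_pos (Nat.le_of_dvd hpos hdvd) hp.pos
      omega
    exact pow_ne_one_of_lt_orderOf hne hlt hmem
  · intro x hx
    have hmem : x ∈ M := by rw [h1]; exact hx
    exact hmem.2

/-- Every nontrivial normal subgroup contains the regular normal subgroup. -/
theorem le_normal (h : HT G Ω N m k) (a : Ω) (M : Subgroup G) (hM : M.Normal) (hM1 : M ≠ ⊥) :
    N ≤ M := by
  have hab := h.abelian a
  rcases h.no_invariant a (M ⊓ N) inf_le_right (fun c _ u hu =>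
    ⟨hM.conj_mem u hu.1 c, h.normal.conj_mem u hu.2 c⟩) with h1 | h1
  · exfalso
    obtain ⟨u, hu, hu1⟩ : ∃ u ∈ M, u ≠ 1 := by
      by_contra hc; push Not at hc; exact hM1 ((Subgroup.eq_bot_iff_forall _).mpr hc)
    have hcomm : ∀ g ∈ N, Commute u g := by
      intro g hg
      have hmem : u * g * u⁻¹ * g⁻¹ ∈ M ⊓ N := by
        constructor
        · have e : u * g * u⁻¹ * g⁻¹ = u * (g * u⁻¹ * g⁻¹) := by group
          rw [e]; exact M.mul_mem hu (hM.conj_mem _ (M.inv_mem hu) g)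
        · exact N.mul_mem (h.normal.conj_mem g hg u) (N.inv_mem hg)
      rw [h1, Subgroup.mem_bot] at hmem
      have e : u * g = g * u := by
        have := congrArg (fun z => z * g * u) hmem
        simpa [mul_assoc] using this
      exact e
    obtain ⟨g, hg, hga⟩ := h.trans a (u • a)
    have hfix : g⁻¹ * u = 1 := h.faithful _ (fun ω => by
      obtain ⟨n, hn, rfl⟩ := h.trans a ω
      have hc : Commute (g⁻¹ * u) n := ((hab g hg n hn).inv_left).mul_left (hcomm n hn)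
      rw [← mul_smul, hc.eq, mul_smul, mul_smul, ← hga, inv_smul_smul])
    have hug : u = g := (inv_mul_eq_one.mp hfix).symm
    have hmem : u ∈ M ⊓ N := ⟨hu, hug ▸ hg⟩
    rw [h1] at hmem
    exact hu1 (Subgroup.mem_bot.mp hmem)
  · rw [← h1]; exact inf_le_left

end HT

theorem card_stabilizer_subgroup {G Ω : Type*} [Group G] [MulAction G Ω] (D : Subgroup G)
    (y : Ω) : Nat.card (stabilizer ↥D y) = Nat.card ↥(D ⊓ stabilizer G y) := by
  refine Nat.card_congr
    { toFun := fun d => ⟨d.1.1, d.1.2, d.2⟩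
      invFun := fun e => ⟨⟨e.1, e.2.1⟩, e.2.2⟩
      left_inv := fun d => rfl
      right_inv := fun e => rfl }

/-- A `3/2`-transitive group with a regular normal subgroup which is not a Frobenius group
satisfies the hypotheses `HT`. -/
theorem HT.of_half {G Ω : Type*} [Group G] [Finite G] [MulAction G Ω] [FaithfulSMul G Ω]
    [Finite Ω] (htrans : IsPretransitive G Ω)
    (hhalf : ∀ a b c : Ω, b ≠ a → c ≠ a →
      Nat.card (orbit (stabilizer G a) b) = Nat.card (orbit (stabilizer G a) c))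
    (N : Subgroup G) [hN : N.Normal] (hNt : IsPretransitive N Ω)
    (hNr : ∀ a : Ω, stabilizer N a = ⊥)
    (hnotF : ∃ a b : Ω, a ≠ b ∧ stabilizer G a ⊓ stabilizer G b ≠ ⊥) :
    ∃ m k, HT G Ω N m k := by
  obtain ⟨a₀, b₀, hab₀, hne₀⟩ := hnotF
  have hos : ∀ a b : Ω, Nat.card (orbit (stabilizer G a) b) *
      Nat.card ↥(stabilizer G a ⊓ stabilizer G b) = Nat.card (stabilizer G a) := by
    intro a b
    rw [← card_stabilizer_subgroup,
      Nat.card_congr (orbitEquivQuotientStabilizer ↥(stabilizer G a) b)]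
    exact (Subgroup.card_eq_card_quotient_mul_card_subgroup _).symm
  have hμ : ∀ a b c : Ω, b ≠ a → c ≠ a → Nat.card ↥(stabilizer G a ⊓ stabilizer G b) =
      Nat.card ↥(stabilizer G a ⊓ stabilizer G c) := by
    intro a b c hb hc
    have h1 := hos a b
    have h2 := hos a c
    rw [hhalf a b c hb hc] at h1
    have : Nonempty (orbit (stabilizer G a) c) := ⟨⟨c, mem_orbit_self c⟩⟩
    have hpos : 0 < Nat.card (orbit (stabilizer G a) c) := Nat.card_pos
    exact Nat.eq_of_mul_eq_mul_left hpos (h1.trans h2.symm)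
  have hsym : ∀ a b : Ω, Nat.card ↥(stabilizer G a ⊓ stabilizer G b) =
      Nat.card ↥(stabilizer G b ⊓ stabilizer G a) := by
    intro a b; rw [inf_comm]
  have htwo : ∀ a b : Ω, a ≠ b → Nat.card ↥(stabilizer G a ⊓ stabilizer G b) =
      Nat.card ↥(stabilizer G a₀ ⊓ stabilizer G b₀) := by
    intro a b hab
    by_cases hb : b = a₀
    · rw [hsym a b, hb]
      exact hμ a₀ a b₀ (hb ▸ hab) (Ne.symm hab₀)
    · rw [hsym a b, hμ b a a₀ hab (Ne.symm hb), hsym b a₀]
      exact hμ a₀ b b₀ hb (Ne.symm hab₀)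
  have hcardstab : ∀ a : Ω, Nat.card (stabilizer G a) = Nat.card (stabilizer G a₀) := by
    intro a
    obtain ⟨g, rfl⟩ := MulAction.exists_smul_eq G a₀ a
    rw [stabilizer_smul_eq_stabilizer_map_conj]
    exact Subgroup.card_map_of_injective (MulEquiv.injective _)
  have hmdvd : Nat.card ↥(stabilizer G a₀ ⊓ stabilizer G b₀) ∣ Nat.card (stabilizer G a₀) :=
    Subgroup.card_dvd_of_le inf_le_left
  obtain ⟨k, hk⟩ := hmdvd
  refine ⟨Nat.card ↥(stabilizer G a₀ ⊓ stabilizer G b₀), k,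
    ⟨htwo, fun a => by rw [hcardstab a, hk, mul_comm], ?_, ?_, hN, ?_, ?_⟩⟩
  · exact (Subgroup.one_lt_card_iff_ne_bot _).mpr hne₀
  · intro g hg
    exact FaithfulSMul.eq_of_smul_eq_smul (α := Ω) (fun x => by rw [hg x, one_smul])
  · intro a b
    obtain ⟨n, hn⟩ := MulAction.exists_smul_eq ↥N a b
    exact ⟨n.1, n.2, hn⟩
  · intro n hn a ha
    have hmem : (⟨n, hn⟩ : ↥N) ∈ stabilizer ↥N a := ha
    rw [hNr a, Subgroup.mem_bot] at hmem
    exact congrArg Subtype.val hmem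

end Cfsg.Agent.Helper56
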