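import Mathlib

/-!
# Linear algebra of `2 × 2` matrices for primitive linear groups of degree two (helper56)

* `prim2_commutant`: a matrix commuting with a non-scalar `2 × 2` matrix `M` is `α + β M`.
* `prim2_comm_of_commute`: the commutant of a non-scalar `2 × 2` matrix is commutative.
* `prim2_disc_ne_zero`: a non-scalar complex `2 × 2` matrix of finite order has nonzero
  discriminant.
* `prim2_conj_cases`: an element `α + β M` with the trace and determinant of `M` is `M` or
  `tr M - M`.
-/

set_option autoImplicit false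

namespace Cfsg.Agent.Helper56

open Matrix

theorem prim2_commutant {K : Type*} [Field K] {M X : Matrix (Fin 2) (Fin 2) K}
    (hM : ∀ c : K, M ≠ c • (1 : Matrix (Fin 2) (Fin 2) K)) (hX : X * M = M * X) :
    ∃ α β : K, X = α • (1 : Matrix (Fin 2) (Fin 2) K) + β • M := by
  have h00 := congrFun (congrFun hX 0) 0
  have h01 := congrFun (congrFun hX 0) 1
  have h10 := congrFun (congrFun hX 1) 0
  have h11 := congrFun (congrFun hX 1) 1
  simp only [Matrix.mul_apply, Fin.sum_univ_two] at h00 h01 h10 h11
  by_cases hb : M 0 1 = 0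
  · by_cases hc : M 1 0 = 0
    · have hd : M 0 0 - M 1 1 ≠ 0 := by
        intro h
        apply hM (M 0 0)
        ext i j
        fin_cases i <;> fin_cases j <;> simp [hb, hc]
        exact (sub_eq_zero.mp h).symm
      simp only [hb, hc] at h01 h10
      have hx01 : X 0 1 = 0 := by
        have h5 : X 0 1 * (M 0 0 - M 1 1) = 0 := by linear_combination -h01
        rcases mul_eq_zero.mp h5 with h6 | h6
        · exact h6
        · exact absurd h6 hd
      have hx10 : X 1 0 = 0 := by
        have h5 : X 1 0 * (M 0 0 - M 1 1) = 0 := by linear_combination h10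
        rcases mul_eq_zero.mp h5 with h6 | h6
        · exact h6
        · exact absurd h6 hd
      refine ⟨X 0 0 - (X 0 0 - X 1 1) / (M 0 0 - M 1 1) * M 0 0,
        (X 0 0 - X 1 1) / (M 0 0 - M 1 1), ?_⟩
      ext i j
      fin_cases i <;> fin_cases j <;> simp [hb, hc, hx01, hx10]
      field_simp
      ring
    · refine ⟨X 0 0 - X 1 0 / M 1 0 * M 0 0, X 1 0 / M 1 0, ?_⟩
      rw [hb] at h00 h01
      have hx01 : X 0 1 = 0 := by
        have h5 : X 0 1 * M 1 0 = 0 := by linear_combination h00
        rcases mul_eq_zero.mp h5 with h6 | h6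
        · exact h6
        · exact absurd h6 hc
      ext i j
      fin_cases i <;> fin_cases j <;> simp [hb, hx01]
      · field_simp
      · field_simp
        linear_combination h10
  · refine ⟨X 0 0 - X 0 1 / M 0 1 * M 0 0, X 0 1 / M 0 1, ?_⟩
    ext i j
    fin_cases i <;> fin_cases j <;> simp
    · field_simp
    · field_simp
      linear_combination -h00
    · field_simp
      linear_combination -h01

theorem prim2_comm_of_commute {K : Type*} [Field K] {M X Y : Matrix (Fin 2) (Fin 2) K}
    (hM : ∀ c : K, M ≠ c • (1 : Matrix (Fin 2) (Fin 2) K)) (hX : X * M = M * X)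
    (hY : Y * M = M * Y) : X * Y = Y * X := by
  obtain ⟨α, β, rfl⟩ := prim2_commutant hM hX
  rw [add_mul, mul_add, smul_mul_assoc, one_mul, mul_smul_comm, mul_one, smul_mul_assoc,
    mul_smul_comm, hY]

theorem prim2_cayley (M : Matrix (Fin 2) (Fin 2) ℂ) :
    M * M = M.trace • M - M.det • (1 : Matrix (Fin 2) (Fin 2) ℂ) := by
  ext i j
  fin_cases i <;> fin_cases j <;>
    simp [Matrix.mul_apply, Fin.sum_univ_two, Matrix.det_fin_two, Matrix.trace_fin_two] <;> ring

theorem prim2_disc_ne_zero {M : Matrix (Fin 2) (Fin 2) ℂ} {k : ℕ} (hk : 0 < k) (hMk : M ^ k = 1)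
    (hM : ∀ c : ℂ, M ≠ c • (1 : Matrix (Fin 2) (Fin 2) ℂ)) : M.trace ^ 2 ≠ 4 * M.det := by
  intro hdisc
  obtain ⟨c, hc⟩ : ∃ c : ℂ, c = M.trace / 2 := ⟨_, rfl⟩
  obtain ⟨Nn, hNn⟩ : ∃ Nn : Matrix (Fin 2) (Fin 2) ℂ, Nn = M - c • 1 := ⟨_, rfl⟩
  have hNN : Nn * Nn = 0 := by
    rw [hNn, sub_mul, mul_sub, mul_sub, prim2_cayley M]
    simp only [smul_mul_assoc, mul_smul_comm, one_mul, mul_one, smul_smul]
    have hD : M.det = c * c := by rw [hc]; linear_combination (-1 / 4 : ℂ) * hdisc
    have ht : M.trace = 2 * c := by rw [hc]; ring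
    rw [hD, ht]
    module
  have hMN : M = c • 1 + Nn := by rw [hNn]; abel
  have hN0 : Nn ≠ 0 := by
    intro h
    apply hM c
    rw [hMN, h, add_zero]
  have hpow : ∀ j : ℕ, M ^ (j + 1) = c ^ (j + 1) • (1 : Matrix (Fin 2) (Fin 2) ℂ) +
      (((j + 1 : ℕ) : ℂ) * c ^ j) • Nn := by
    intro j
    induction j with
    | zero => simp [hMN]
    | succ j ih =>
      rw [pow_succ, ih]
      conv_lhs => rw [hMN]
      rw [add_mul, mul_add, mul_add]
      simp only [smul_mul_assoc, mul_smul_comm, one_mul, mul_one, smul_smul, hNN, smul_zero,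
        add_zero]
      push_cast
      module
  obtain ⟨j, rfl⟩ : ∃ j, k = j + 1 := ⟨k - 1, by omega⟩
  rw [hpow j] at hMk
  have h1 : (c ^ (j + 1) - 1) • Nn = 0 := by
    have h2 := congrArg (fun Y => Y * Nn) hMk
    simp only [add_mul, smul_mul_assoc, one_mul, hNN, smul_zero, add_zero] at h2
    rw [sub_smul, one_smul, h2, sub_self]
  have hc1 : c ^ (j + 1) = 1 := by
    rcases smul_eq_zero.mp h1 with h | h
    · exact sub_eq_zero.mp h
    · exact absurd h hN0
  rw [hc1, one_smul] at hMk
  have h3 : (((j + 1 : ℕ) : ℂ) * c ^ j) • Nn = 0 := by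
    have := hMk
    rwa [add_eq_left] at this
  rcases smul_eq_zero.mp h3 with h | h
  · rcases mul_eq_zero.mp h with h4 | h4
    · have : ((j + 1 : ℕ) : ℂ) ≠ 0 := by exact_mod_cast Nat.succ_ne_zero j
      exact this h4
    · have hc0 : c = 0 := by
        by_contra hne
        exact pow_ne_zero j hne h4
      rw [hc0, zero_pow (Nat.succ_ne_zero j)] at hc1
      exact zero_ne_one hc1
  · exact hN0 h

theorem prim2_conj_cases {M X : Matrix (Fin 2) (Fin 2) ℂ} (hdisc : M.trace ^ 2 ≠ 4 * M.det)
    {α β : ℂ} (hX : X = α • (1 : Matrix (Fin 2) (Fin 2) ℂ) + β • M) (htr : X.trace = M.trace)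
    (hdet : X.det = M.det) : X = M ∨ X = M.trace • (1 : Matrix (Fin 2) (Fin 2) ℂ) - M := by
  have htr' : 2 * α + β * M.trace = M.trace := by
    rw [hX] at htr
    simp only [Matrix.trace_add, Matrix.trace_smul, Matrix.trace_one, Fintype.card_fin,
      smul_eq_mul] at htr
    push_cast at htr
    linear_combination htr
  have hdet' : α ^ 2 + α * β * M.trace + β ^ 2 * M.det = M.det := by
    rw [hX] at hdet
    simp only [Matrix.det_fin_two, Matrix.add_apply, Matrix.smul_apply, Matrix.one_apply,
      smul_eq_mul] at hdet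
    simp only [Matrix.det_fin_two, Matrix.trace_fin_two]
    simp at hdet
    linear_combination hdet
  have hkey : (1 - β ^ 2) * (M.trace ^ 2 - 4 * M.det) = 0 := by
    linear_combination (4 : ℂ) * hdet' - (2 * α + M.trace + β * M.trace) * htr'
  have hβ : β ^ 2 = 1 := by
    rcases mul_eq_zero.mp hkey with h | h
    · linear_combination -h
    · exact absurd (sub_eq_zero.mp h) hdisc
  have hβ' : (β - 1) * (β + 1) = 0 := by linear_combination hβ
  rcases mul_eq_zero.mp hβ' with h | h
  · left
    have hβ1 : β = 1 := by linear_combination h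
    have hα : α = 0 := by
      rw [hβ1] at htr'
      linear_combination (1 / 2 : ℂ) * htr'
    rw [hX, hβ1, hα, zero_smul, zero_add, one_smul]
  · right
    have hβ1 : β = -1 := by linear_combination h
    have hα : α = M.trace := by
      rw [hβ1] at htr'
      linear_combination (1 / 2 : ℂ) * htr'
    rw [hX, hβ1, hα, neg_one_smul, sub_eq_add_neg]

end Cfsg.Agent.Helper56
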