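import Mathlib
import Cfsg.Agent.Helper56.Prim2A

/-!
# Primitive linear groups of degree two: the partition by centralisers (helper56)

Setting (`Prim2 ρ`): `ρ : G →* M₂(ℂ)` injective, non-central elements are non-scalar, and `G` has
no abelian subgroup of index `1` or `2`.  Then centralisers of non-central elements are abelian,
they partition `G ∖ Z(G)`, and each has index at most two in its normaliser.
-/

set_option autoImplicit false

namespace Cfsg.Agent.Helper56

open Matrix

/-- Standing hypotheses. -/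
structure Prim2 {G : Type*} [Group G] (ρ : G →* Matrix (Fin 2) (Fin 2) ℂ) : Prop where
  inj : Function.Injective ρ
  ns : ∀ g : G, g ∉ Subgroup.center G → ∀ c : ℂ, ρ g ≠ c • (1 : Matrix (Fin 2) (Fin 2) ℂ)
  ab : ∀ A : Subgroup G, (∀ x ∈ A, ∀ y ∈ A, x * y = y * x) → A.index ≠ 1 ∧ A.index ≠ 2

theorem prim2_mem_cent {G : Type*} [Group G] (g x : G) :
    x ∈ Subgroup.centralizer ({g} : Set G) ↔ g * x = x * g := by
  rw [Subgroup.mem_centralizer_iff]
  constructor
  · intro h; exact h g rfl
  · intro h y hy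
    rw [Set.mem_singleton_iff.mp hy]; exact h

namespace Prim2

variable {G : Type*} [Group G] {ρ : G →* Matrix (Fin 2) (Fin 2) ℂ}

theorem comm (h : Prim2 ρ) {g : G} (hg : g ∉ Subgroup.center G) {x y : G}
    (hx : x ∈ Subgroup.centralizer ({g} : Set G)) (hy : y ∈ Subgroup.centralizer ({g} : Set G)) :
    x * y = y * x := by
  rw [prim2_mem_cent] at hx hy
  apply h.inj
  rw [map_mul, map_mul]
  apply prim2_comm_of_commute (h.ns g hg)
  · rw [← map_mul, ← map_mul, hx]
  · rw [← map_mul, ← map_mul, hy]

theorem cent_eq (h : Prim2 ρ) {g u : G} (hg : g ∉ Subgroup.center G)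
    (hu : u ∈ Subgroup.centralizer ({g} : Set G)) (huZ : u ∉ Subgroup.center G) :
    Subgroup.centralizer ({u} : Set G) = Subgroup.centralizer ({g} : Set G) := by
  have hgu : g ∈ Subgroup.centralizer ({u} : Set G) := by
    rw [prim2_mem_cent] at hu ⊢
    exact hu.symm
  have hgg : g ∈ Subgroup.centralizer ({g} : Set G) := (prim2_mem_cent g g).mpr rfl
  have huu : u ∈ Subgroup.centralizer ({u} : Set G) := (prim2_mem_cent u u).mpr rfl
  ext x
  constructor
  · intro hx
    rw [prim2_mem_cent]
    exact h.comm huZ hgu hx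
  · intro hx
    rw [prim2_mem_cent]
    exact h.comm hg hu hx

theorem conj_cases [Finite G] (h : Prim2 ρ) {g : G} (hg : g ∉ Subgroup.center G) {n : G}
    (hn : n ∈ Subgroup.normalizer ((Subgroup.centralizer ({g} : Set G) : Subgroup G) : Set G)) :
    n ∈ Subgroup.centralizer ({g} : Set G) ∨
      ρ (n * g * n⁻¹) = (ρ g).trace • (1 : Matrix (Fin 2) (Fin 2) ℂ) - ρ g := by
  have hgg : g ∈ Subgroup.centralizer ({g} : Set G) := (prim2_mem_cent g g).mpr rfl
  have hx : n * g * n⁻¹ ∈ Subgroup.centralizer ({g} : Set G) :=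
    (Subgroup.mem_normalizer_iff.mp hn g).mp hgg
  have hdisc : (ρ g).trace ^ 2 ≠ 4 * (ρ g).det := by
    apply prim2_disc_ne_zero (orderOf_pos g) _ (h.ns g hg)
    rw [← map_pow, pow_orderOf_eq_one, map_one]
  have hcomm : ρ (n * g * n⁻¹) * ρ g = ρ g * ρ (n * g * n⁻¹) := by
    rw [prim2_mem_cent] at hx
    rw [← map_mul, ← map_mul, hx]
  obtain ⟨α, β, hαβ⟩ := prim2_commutant (h.ns g hg) hcomm
  have hnn : ρ n⁻¹ * ρ n = 1 := by rw [← map_mul, inv_mul_cancel, map_one]
  have htr : (ρ (n * g * n⁻¹)).trace = (ρ g).trace := by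
    rw [map_mul, map_mul, Matrix.trace_mul_comm, ← mul_assoc, hnn, one_mul]
  have hdet : (ρ (n * g * n⁻¹)).det = (ρ g).det := by
    rw [map_mul, map_mul, Matrix.det_mul, Matrix.det_mul]
    have h1 : (ρ n).det * (ρ n⁻¹).det = 1 := by
      rw [← Matrix.det_mul, ← map_mul, mul_inv_cancel, map_one, Matrix.det_one]
    linear_combination (ρ g).det * h1
  rcases prim2_conj_cases hdisc hαβ htr hdet with h1 | h1
  · left
    have h2 : n * g * n⁻¹ = g := h.inj h1
    rw [prim2_mem_cent]
    calc g * n = (n * g * n⁻¹)⁻¹⁻¹ * n := by rw [h2]; simp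
      _ = n * g := by group
  · right; exact h1

theorem norm (h : Prim2 ρ) [Finite G] {g : G} (hg : g ∉ Subgroup.center G) {n₁ n₂ : G}
    (h1 : n₁ ∈ Subgroup.normalizer ((Subgroup.centralizer ({g} : Set G) : Subgroup G) : Set G))
    (h1' : n₁ ∉ Subgroup.centralizer ({g} : Set G))
    (h2 : n₂ ∈ Subgroup.normalizer ((Subgroup.centralizer ({g} : Set G) : Subgroup G) : Set G))
    (h2' : n₂ ∉ Subgroup.centralizer ({g} : Set G)) :
    n₁⁻¹ * n₂ ∈ Subgroup.centralizer ({g} : Set G) := by
  have e1 := (h.conj_cases hg h1).resolve_left h1'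
  have e2 := (h.conj_cases hg h2).resolve_left h2'
  have e3 : n₁ * g * n₁⁻¹ = n₂ * g * n₂⁻¹ := h.inj (e1.trans e2.symm)
  rw [prim2_mem_cent]
  calc g * (n₁⁻¹ * n₂) = n₁⁻¹ * (n₁ * g * n₁⁻¹) * n₂ := by group
    _ = n₁⁻¹ * (n₂ * g * n₂⁻¹) * n₂ := by rw [e3]
    _ = n₁⁻¹ * n₂ * g := by group

theorem card_normalizer_aux [Finite G] (A : Subgroup G)
    (hnorm : ∀ n₁ ∈ Subgroup.normalizer (A : Set G), ∀ n₂ ∈ Subgroup.normalizer (A : Set G),
      n₁ ∉ A → n₂ ∉ A → n₁⁻¹ * n₂ ∈ A) :
    Nat.card (Subgroup.normalizer (A : Set G)) = Nat.card A ∨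
      Nat.card (Subgroup.normalizer (A : Set G)) = 2 * Nat.card A := by
  classical
  have hle : A ≤ Subgroup.normalizer (A : Set G) := Subgroup.le_normalizer
  by_cases hall : Subgroup.normalizer (A : Set G) ≤ A
  · left
    rw [le_antisymm hall hle]
  · right
    obtain ⟨n₀, hn₀, hn₀A⟩ := SetLike.not_le_iff_exists.mp hall
    have hdvd : Nat.card A ∣ Nat.card (Subgroup.normalizer (A : Set G)) :=
      Subgroup.card_dvd_of_le hle
    have hne : Nat.card (Subgroup.normalizer (A : Set G)) ≠ Nat.card A := by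
      intro heq
      apply hall
      exact (Subgroup.eq_of_le_of_card_ge hle heq.le).symm.le
    have hle2 : Nat.card (Subgroup.normalizer (A : Set G)) ≤ 2 * Nat.card A := by
      have hinj : Function.Injective (fun n : Subgroup.normalizer (A : Set G) =>
          if hn : (n : G) ∈ A then ((⟨(n : G), hn⟩ : A), true)
          else ((⟨n₀⁻¹ * (n : G), hnorm n₀ hn₀ n n.2 hn₀A hn⟩ : A), false)) := by
        intro n n' hnn'
        by_cases c1 : (n : G) ∈ A <;> by_cases c2 : (n' : G) ∈ A
        · simp only [c1, c2, dif_pos] at hnn'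
          have := congrArg (fun p : A × Bool => (p.1 : G)) hnn'
          exact Subtype.ext this
        · simp only [c1, c2, dif_pos, dif_neg, not_false_eq_true] at hnn'
          have := congrArg (fun p : A × Bool => p.2) hnn'
          simp at this
        · simp only [c1, c2, dif_pos, dif_neg, not_false_eq_true] at hnn'
          have := congrArg (fun p : A × Bool => p.2) hnn'
          simp at this
        · simp only [c1, c2, dif_neg, not_false_eq_true] at hnn'
          have h5 := congrArg (fun p : A × Bool => (p.1 : G)) hnn'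
          have h6 : n₀⁻¹ * (n : G) = n₀⁻¹ * (n' : G) := h5
          exact Subtype.ext (mul_left_cancel h6)
      have h5 := Nat.card_le_card_of_injective _ hinj
      rw [Nat.card_prod, Nat.card_eq_fintype_card (α := Bool), Fintype.card_bool] at h5
      omega
    obtain ⟨d, hd⟩ := hdvd
    have hApos : 0 < Nat.card A := Nat.card_pos
    have hd2 : d = 2 := by
      have h5 : d ≠ 1 := by
        rintro rfl
        exact hne (by rw [hd, mul_one])
      have h6 : d ≠ 0 := by
        rintro rfl
        have : 0 < Nat.card (Subgroup.normalizer (A : Set G)) := Nat.card_pos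
        rw [hd, mul_zero] at this
        exact lt_irrefl _ this
      have h7 : d ≤ 2 := by
        by_contra hcon
        push Not at hcon
        have : 3 * Nat.card A ≤ Nat.card A * d := by nlinarith
        omega
      omega
    rw [hd, hd2, mul_comm]

theorem card_normalizer (h : Prim2 ρ) [Finite G] {g : G} (hg : g ∉ Subgroup.center G) :
    Nat.card (Subgroup.normalizer ((Subgroup.centralizer ({g} : Set G) : Subgroup G) : Set G)) =
        Nat.card (Subgroup.centralizer ({g} : Set G)) ∨
      Nat.card (Subgroup.normalizer ((Subgroup.centralizer ({g} : Set G) : Subgroup G) : Set G)) =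
        2 * Nat.card (Subgroup.centralizer ({g} : Set G)) :=
  card_normalizer_aux _ (fun _ h1 _ h2 h1' h2' => h.norm hg h1 h1' h2 h2')

end Prim2

end Cfsg.Agent.Helper56
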