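import Mathlib

/-!
# The arithmetic of the class equation for primitive linear groups of degree two (helper56)

A family with parameters `(a, n, m)` (order `a` of the abelian subgroup modulo the centre,
`n = |N(A) : A| ∈ {1, 2}`, `m = |G : N(A)|`, `N = n a m = |G : Z|`, `n m ≥ 3`) contributes
`m (a - 1)` to `N - 1`.  With one, two or three families the only solutions are `N = 12, 24, 60`.
-/

set_option autoImplicit false

namespace Cfsg.Agent.Helper56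

theorem prim2_arith_core2 {h m₁ m₂ m₃ a₃ : ℕ} (h1 : h = 2 * m₁) (h2 : h = 3 * m₂)
    (h3 : h = m₃ * a₃) (hsum : h + 1 = m₁ + m₂ + m₃) (_hm3 : 2 ≤ m₃) (ha3 : 2 ≤ a₃) :
    h = 6 ∨ h = 12 ∨ h = 30 := by
  have h6 : h + 6 = 6 * m₃ := by omega
  have ha6 : a₃ < 6 := by
    by_contra hcon
    push Not at hcon
    have : 6 * m₃ ≤ m₃ * a₃ := by nlinarith
    omega
  interval_cases a₃ <;> omega

theorem prim2_arith_core {h m₁ m₂ m₃ a₂ a₃ : ℕ} (h1 : h = 2 * m₁) (h2 : h = m₂ * a₂)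
    (h3 : h = m₃ * a₃) (hsum : h + 1 = m₁ + m₂ + m₃) (hm2 : 2 ≤ m₂) (hm3 : 2 ≤ m₃)
    (ha2 : 2 ≤ a₂) (ha3 : 2 ≤ a₃) : h = 6 ∨ h = 12 ∨ h = 30 := by
  by_cases h4 : a₂ ≤ 3
  · interval_cases a₂
    · exfalso; omega
    · exact prim2_arith_core2 h1 (by omega) h3 hsum hm3 ha3
  · by_cases h5 : a₃ ≤ 3
    · interval_cases a₃
      · exfalso; omega
      · exact prim2_arith_core2 (m₂ := m₃) (m₃ := m₂) (a₃ := a₂) h1 (by omega) h2 (by omega) hm2 ha2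
    · exfalso
      have : 4 * m₂ ≤ m₂ * a₂ := by nlinarith
      have : 4 * m₃ ≤ m₃ * a₃ := by nlinarith
      omega

theorem prim2_arith_222 {h m₁ m₂ m₃ a₁ a₂ a₃ : ℕ} (h1 : h = m₁ * a₁) (h2 : h = m₂ * a₂)
    (h3 : h = m₃ * a₃) (hsum : h + 1 = m₁ + m₂ + m₃) (hm1 : 2 ≤ m₁) (hm2 : 2 ≤ m₂)
    (hm3 : 2 ≤ m₃) (ha1 : 2 ≤ a₁) (ha2 : 2 ≤ a₂) (ha3 : 2 ≤ a₃) :
    h = 6 ∨ h = 12 ∨ h = 30 := by
  by_cases c1 : a₁ = 2
  · subst c1
    exact prim2_arith_core (by omega) h2 h3 hsum hm2 hm3 ha2 ha3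
  by_cases c2 : a₂ = 2
  · subst c2
    exact prim2_arith_core (m₁ := m₂) (m₂ := m₁) (m₃ := m₃) (a₂ := a₁) (a₃ := a₃) (by omega) h1 h3
      (by omega) hm1 hm3 ha1 ha3
  by_cases c3 : a₃ = 2
  · subst c3
    exact prim2_arith_core (m₁ := m₃) (m₂ := m₁) (m₃ := m₂) (a₂ := a₁) (a₃ := a₂) (by omega) h1 h2
      (by omega) hm1 hm2 ha1 ha2
  exfalso
  have : 3 * m₁ ≤ m₁ * a₁ := by nlinarith [show 3 ≤ a₁ by omega]
  have : 3 * m₂ ≤ m₂ * a₂ := by nlinarith [show 3 ≤ a₂ by omega]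
  have : 3 * m₃ ≤ m₃ * a₃ := by nlinarith [show 3 ≤ a₃ by omega]
  omega

/-- the case of one family with `n = 1` and one with `n = 2` -/
theorem prim2_arith_12 {p₁ p₂ m₁ m₂ a₁ a₂ : ℕ} (hp1 : p₁ = m₁ * a₁) (hp2 : p₂ = m₂ * a₂)
    (hN : p₁ = 2 * p₂) (hsum : p₂ + 1 = m₁ + m₂) (hm1 : 3 ≤ m₁) (hm2 : 2 ≤ m₂)
    (ha1 : 2 ≤ a₁) (ha2 : 2 ≤ a₂) : p₁ = 12 := by
  by_cases c1 : a₁ ≤ 3
  · interval_cases a₁
    · exfalso; omega
    · have h5 : p₂ + 3 = 3 * m₂ := by omega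
      by_cases c2 : a₂ = 2
      · subst c2; omega
      · exfalso
        have : 3 * m₂ ≤ m₂ * a₂ := by nlinarith [show 3 ≤ a₂ by omega]
        omega
  · exfalso
    have : 4 * m₁ ≤ m₁ * a₁ := by nlinarith [show 4 ≤ a₁ by omega]
    have : 2 * m₂ ≤ m₂ * a₂ := by nlinarith
    omega

/-- Parameters of a family. -/
structure Prim2Fam (N a n m : ℕ) : Prop where
  hn : n = 1 ∨ n = 2
  ha : 2 ≤ a
  hN : N = n * (m * a)
  hnm : 3 ≤ n * m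

theorem Prim2Fam.two_mul_le {N a n m : ℕ} (f : Prim2Fam N a n m) : 2 * m ≤ m * a := by
  have := f.ha
  nlinarith

theorem Prim2Fam.sub {N a n m : ℕ} (f : Prim2Fam N a n m) : m * (a - 1) + m = m * a := by
  obtain ⟨b, rfl⟩ : ∃ b, a = b + 1 := ⟨a - 1, by have := f.ha; omega⟩
  simp
  ring

theorem prim2_arith1 {N a n m : ℕ} (f : Prim2Fam N a n m) (heq : m * (a - 1) + 1 = N) :
    False := by
  have h1 := f.two_mul_le
  have h2 := f.sub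
  have h3 := f.hN
  have h4 := f.hnm
  rcases f.hn with rfl | rfl <;> omega

theorem prim2_arith2 {N a₁ n₁ m₁ a₂ n₂ m₂ : ℕ} (f₁ : Prim2Fam N a₁ n₁ m₁)
    (f₂ : Prim2Fam N a₂ n₂ m₂) (heq : m₁ * (a₁ - 1) + m₂ * (a₂ - 1) + 1 = N) : N = 12 := by
  have h1 := f₁.two_mul_le
  have h2 := f₁.sub
  have h3 := f₁.hN
  have h4 := f₁.hnm
  have k1 := f₂.two_mul_le
  have k2 := f₂.sub
  have k3 := f₂.hN
  have k4 := f₂.hnm
  rcases f₁.hn with rfl | rfl <;> rcases f₂.hn with rfl | rfl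
  · exfalso; omega
  · have := prim2_arith_12 (p₁ := m₁ * a₁) (p₂ := m₂ * a₂) rfl rfl (by omega) (by omega)
      (by omega) (by omega) f₁.ha f₂.ha
    omega
  · have := prim2_arith_12 (p₁ := m₂ * a₂) (p₂ := m₁ * a₁) rfl rfl (by omega) (by omega)
      (by omega) (by omega) f₂.ha f₁.ha
    omega
  · exfalso; omega

theorem prim2_arith3 {N a₁ n₁ m₁ a₂ n₂ m₂ a₃ n₃ m₃ : ℕ} (f₁ : Prim2Fam N a₁ n₁ m₁)
    (f₂ : Prim2Fam N a₂ n₂ m₂) (f₃ : Prim2Fam N a₃ n₃ m₃)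
    (heq : m₁ * (a₁ - 1) + m₂ * (a₂ - 1) + m₃ * (a₃ - 1) + 1 = N) :
    N = 12 ∨ N = 24 ∨ N = 60 := by
  have h1 := f₁.two_mul_le
  have h2 := f₁.sub
  have h3 := f₁.hN
  have h4 := f₁.hnm
  have k1 := f₂.two_mul_le
  have k2 := f₂.sub
  have k3 := f₂.hN
  have k4 := f₂.hnm
  have l1 := f₃.two_mul_le
  have l2 := f₃.sub
  have l3 := f₃.hN
  have l4 := f₃.hnm
  rcases f₁.hn with rfl | rfl <;> rcases f₂.hn with rfl | rfl <;> rcases f₃.hn with rfl | rfl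
  · exfalso; omega
  · exfalso; omega
  · exfalso; omega
  · exfalso; omega
  · exfalso; omega
  · exfalso; omega
  · exfalso; omega
  · have := prim2_arith_222 (h := m₁ * a₁) (m₁ := m₁) (m₂ := m₂) (m₃ := m₃) rfl (by omega)
      (by omega) (by omega) (by omega) (by omega) (by omega) f₁.ha f₂.ha f₃.ha
    omega

end Cfsg.Agent.Helper56
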