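import Mathlib
import Cfsg.Agent.Helper56.Prim2B
import Cfsg.Agent.Helper56.Prim2C

/-!
# Primitive linear groups of degree two: the class equation (helper56)

`Prim2.index_center`: under `Prim2 ρ` the centre has index `12`, `24` or `60`.
-/

set_option autoImplicit false

namespace Cfsg.Agent.Helper56

open Matrix

theorem prim2_cent_conj {G : Type*} [Group G] (h x w : G) :
    w ∈ Subgroup.centralizer ({h * x * h⁻¹} : Set G) ↔
      h⁻¹ * w * h ∈ Subgroup.centralizer ({x} : Set G) := by
  rw [prim2_mem_cent, prim2_mem_cent]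
  constructor
  · intro e
    calc x * (h⁻¹ * w * h) = h⁻¹ * (h * x * h⁻¹ * w) * h := by group
      _ = h⁻¹ * (w * (h * x * h⁻¹)) * h := by rw [e]
      _ = h⁻¹ * w * h * x := by group
  · intro e
    calc h * x * h⁻¹ * w = h * (x * (h⁻¹ * w * h)) * h⁻¹ := by group
      _ = h * (h⁻¹ * w * h * x) * h⁻¹ := by rw [e]
      _ = w * (h * x * h⁻¹) := by group

theorem prim2_cent_conj_congr {G : Type*} [Group G] {u v : G} (k : G)
    (e : Subgroup.centralizer ({u} : Set G) = Subgroup.centralizer ({v} : Set G)) :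
    Subgroup.centralizer ({k * u * k⁻¹} : Set G) = Subgroup.centralizer ({k * v * k⁻¹} : Set G) := by
  ext w
  rw [prim2_cent_conj, prim2_cent_conj, e]

theorem prim2_conj_not_center {G : Type*} [Group G] {x : G} (hx : x ∉ Subgroup.center G)
    (h : G) : h * x * h⁻¹ ∉ Subgroup.center G := by
  intro hc
  apply hx
  have h1 := (inferInstance : (Subgroup.center G).Normal).conj_mem _ hc h⁻¹
  have h2 : h⁻¹ * (h * x * h⁻¹) * h⁻¹⁻¹ = x := by group
  rwa [h2] at h1

noncomputable section

open Classical

variable {G : Type*} [Group G] [Fintype G]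

/-- The non-central elements. -/
def prim2X (G : Type*) [Group G] [Fintype G] : Finset G :=
  Finset.univ.filter (fun g => g ∉ Subgroup.center G)

/-- The family of `x`: non-central elements whose centraliser is conjugate to that of `x`. -/
def prim2Fam (x : G) : Finset G :=
  (prim2X G).filter (fun y => ∃ h : G, Subgroup.centralizer ({y} : Set G) =
    Subgroup.centralizer ({h * x * h⁻¹} : Set G))

theorem mem_prim2X (g : G) : g ∈ prim2X G ↔ g ∉ Subgroup.center G := by
  simp [prim2X]

theorem mem_prim2Fam (x y : G) : y ∈ prim2Fam x ↔ y ∉ Subgroup.center G ∧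
    ∃ h : G, Subgroup.centralizer ({y} : Set G) = Subgroup.centralizer ({h * x * h⁻¹} : Set G) := by
  simp [prim2Fam, mem_prim2X]

theorem prim2Fam_self {x : G} (hx : x ∉ Subgroup.center G) : x ∈ prim2Fam x :=
  (mem_prim2Fam x x).mpr ⟨hx, 1, by simp⟩

theorem prim2Fam_eq {x y : G} (hy : y ∈ prim2Fam x) : prim2Fam y = prim2Fam x := by
  obtain ⟨hyZ, h, hh⟩ := (mem_prim2Fam x y).mp hy
  ext w
  rw [mem_prim2Fam, mem_prim2Fam]
  constructor
  · rintro ⟨hw, k, hk⟩
    refine ⟨hw, k * h, ?_⟩
    rw [hk, prim2_cent_conj_congr k hh]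
    have e : k * (h * x * h⁻¹) * k⁻¹ = k * h * x * (k * h)⁻¹ := by group
    rw [e]
  · rintro ⟨hw, k, hk⟩
    refine ⟨hw, k * h⁻¹, ?_⟩
    rw [hk, prim2_cent_conj_congr (k * h⁻¹) hh]
    have e : k * h⁻¹ * (h * x * h⁻¹) * (k * h⁻¹)⁻¹ = k * x * k⁻¹ := by group
    rw [e]

theorem prim2_sum_fam :
    ∑ f ∈ (prim2X G).image prim2Fam, f.card = (prim2X G).card := by
  rw [Finset.card_eq_sum_card_image prim2Fam (prim2X G)]
  apply Finset.sum_congr rfl
  intro f hf
  obtain ⟨x, hx, rfl⟩ := Finset.mem_image.mp hf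
  congr 1
  ext a
  rw [Finset.mem_filter]
  constructor
  · intro ha
    exact ⟨(mem_prim2X a).mpr ((mem_prim2Fam x a).mp ha).1, prim2Fam_eq ha⟩
  · intro ha
    rw [← ha.2]
    exact prim2Fam_self ((mem_prim2X a).mp ha.1)

theorem prim2_card_filter_mem (H : Subgroup G) :
    (Finset.univ.filter (fun g : G => g ∈ H)).card = Nat.card H := by
  rw [Nat.card_eq_fintype_card, Fintype.card_subtype]

variable {ρ : G →* Matrix (Fin 2) (Fin 2) ℂ}

theorem Prim2.card_fam (h : Prim2 ρ) {x : G} (hx : x ∉ Subgroup.center G) :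
    (prim2Fam x).card *
        Nat.card (Subgroup.normalizer ((Subgroup.centralizer ({x} : Set G) : Subgroup G) : Set G)) =
      Fintype.card G *
        ((prim2X G).filter (fun u => u ∈ Subgroup.centralizer ({x} : Set G))).card := by
  have hmaps : ∀ p ∈ (Finset.univ : Finset G) ×ˢ
      ((prim2X G).filter (fun u => u ∈ Subgroup.centralizer ({x} : Set G))),
      p.1 * p.2 * p.1⁻¹ ∈ prim2Fam x := by
    rintro ⟨k, u⟩ hp
    simp only [Finset.mem_product, Finset.mem_univ, true_and, Finset.mem_filter, mem_prim2X] at hp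
    rw [mem_prim2Fam]
    exact ⟨prim2_conj_not_center hp.1 k, k, prim2_cent_conj_congr k (h.cent_eq hx hp.2 hp.1)⟩
  have hcount := Finset.card_eq_sum_card_fiberwise hmaps
  rw [Finset.card_product, Finset.card_univ] at hcount
  rw [hcount]
  symm
  apply Finset.sum_const_nat
  intro y hy
  obtain ⟨hyZ, h₀, hh₀⟩ := (mem_prim2Fam x y).mp hy
  rw [← prim2_card_filter_mem]
  apply Finset.card_nbij' (fun p : G × G => h₀⁻¹ * p.1)
    (fun n : G => (h₀ * n, (h₀ * n)⁻¹ * y * (h₀ * n)))
  · rintro ⟨k, u⟩ hp
    simp only [Finset.coe_filter, Finset.mem_product, Finset.mem_univ, true_and, Finset.mem_filter,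
      mem_prim2X, Set.mem_ofPred_eq] at hp ⊢
    obtain ⟨⟨huZ, huA⟩, hku⟩ := hp
    have hcu := h.cent_eq hx huA huZ
    rw [Subgroup.mem_normalizer_iff]
    intro w
    have h1 : k * w * k⁻¹ ∈ Subgroup.centralizer ({y} : Set G) ↔
        w ∈ Subgroup.centralizer ({x} : Set G) := by
      rw [← hku, prim2_cent_conj, hcu]
      have e : k⁻¹ * (k * w * k⁻¹) * k = w := by group
      rw [e]
    have h2 : k * w * k⁻¹ ∈ Subgroup.centralizer ({y} : Set G) ↔
        h₀⁻¹ * k * w * (h₀⁻¹ * k)⁻¹ ∈ Subgroup.centralizer ({x} : Set G) := by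
      rw [hh₀, prim2_cent_conj]
      have e : h₀⁻¹ * (k * w * k⁻¹) * h₀ = h₀⁻¹ * k * w * (h₀⁻¹ * k)⁻¹ := by group
      rw [e]
    rw [← h1, h2]
  · intro n hn
    simp only [Finset.coe_filter, Finset.mem_product, Finset.mem_univ, true_and, Finset.mem_filter,
      mem_prim2X, Set.mem_ofPred_eq] at hn ⊢
    refine ⟨⟨?_, ?_⟩, by group⟩
    · have := prim2_conj_not_center hyZ (h₀ * n)⁻¹
      rwa [inv_inv] at this
    · have hy' : h₀⁻¹ * y * h₀ ∈ Subgroup.centralizer ({x} : Set G) := by
        rw [← prim2_cent_conj, ← hh₀, prim2_mem_cent]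
      have hn' := (Subgroup.mem_normalizer_iff.mp (inv_mem hn) (h₀⁻¹ * y * h₀)).mp hy'
      have e : n⁻¹ * (h₀⁻¹ * y * h₀) * n⁻¹⁻¹ = (h₀ * n)⁻¹ * y * (h₀ * n) := by group
      rwa [e] at hn'
  · rintro ⟨k, u⟩ hp
    simp only [Finset.coe_filter, Finset.mem_product, Finset.mem_univ, true_and, Finset.mem_filter,
      mem_prim2X, Set.mem_ofPred_eq] at hp
    obtain ⟨-, hku⟩ := hp
    rw [← hku]
    apply Prod.ext
    · show h₀ * (h₀⁻¹ * k) = k
      group
    · show (h₀ * (h₀⁻¹ * k))⁻¹ * (k * u * k⁻¹) * (h₀ * (h₀⁻¹ * k)) = u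
      group
  · intro n _
    show h₀⁻¹ * (h₀ * n) = n
    group

theorem Prim2.exists_fam (h : Prim2 ρ) {x : G} (hx : x ∉ Subgroup.center G) :
    ∃ a n m : ℕ, Prim2Fam (Subgroup.center G).index a n m ∧
      (prim2Fam x).card = Nat.card (Subgroup.center G) * (m * (a - 1)) := by
  obtain ⟨A, hA⟩ : ∃ A : Subgroup G, A = Subgroup.centralizer ({x} : Set G) := ⟨_, rfl⟩
  have hZA : Subgroup.center G ≤ A := by rw [hA]; exact Subgroup.center_le_centralizer _
  have hzpos : 0 < Nat.card (Subgroup.center G) := Nat.card_pos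
  obtain ⟨a, ha⟩ := Subgroup.card_dvd_of_le hZA
  have hxA : x ∈ A := by rw [hA]; exact (prim2_mem_cent x x).mpr rfl
  have hApos : 0 < Nat.card A := Nat.card_pos
  have ha2 : 2 ≤ a := by
    by_contra hcon
    have ha1 : a ≤ 1 := by omega
    have hle : Nat.card A ≤ Nat.card (Subgroup.center G) := by
      rw [ha]; nlinarith
    have := Subgroup.eq_of_le_of_card_ge hZA hle
    apply hx
    rw [this]; exact hxA
  have hcomm : ∀ u ∈ A, ∀ v ∈ A, u * v = v * u := by
    intro u hu v hv
    rw [hA] at hu hv
    exact h.comm hx hu hv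
  obtain ⟨hi1, hi2⟩ := h.ab A hcomm
  have hi0 : A.index ≠ 0 := Subgroup.index_ne_zero_of_finite
  have hAidx := A.card_mul_index
  have hZidx := (Subgroup.center G).card_mul_index
  have hNidx := (Subgroup.normalizer (A : Set G)).card_mul_index
  have hfam := h.card_fam hx
  rw [← hA] at hfam
  -- the punctured subgroup
  have hAX : ((prim2X G).filter (fun u => u ∈ A)).card + Nat.card (Subgroup.center G) =
      Nat.card A := by
    rw [← prim2_card_filter_mem A, ← prim2_card_filter_mem (Subgroup.center G)]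
    have h1 := Finset.card_filter_add_card_filter_not
      (s := Finset.univ.filter (fun g : G => g ∈ A)) (fun g : G => g ∈ Subgroup.center G)
    have e1 : (prim2X G).filter (fun u => u ∈ A) =
        (Finset.univ.filter (fun g : G => g ∈ A)).filter (fun g => ¬ g ∈ Subgroup.center G) := by
      ext u
      simp only [Finset.mem_filter, Finset.mem_univ, true_and, mem_prim2X]
      tauto
    have e2 : ∀ H : Subgroup G, H ≤ A → (Finset.univ.filter (fun g : G => g ∈ H)).card =
        ((Finset.univ.filter (fun g : G => g ∈ A)).filter (fun g => g ∈ H)).card := by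
      intro H hH
      congr 1
      ext u
      simp only [Finset.mem_filter, Finset.mem_univ, true_and]
      constructor
      · intro hu; exact ⟨hH hu, hu⟩
      · intro hu; exact hu.2
    rw [e1, add_comm, e2 _ hZA]
    convert h1 using 2
    congr 1
    ext u
    simp only [Finset.mem_filter, Finset.mem_univ, true_and]
  have hcardG : Fintype.card G = Nat.card G := (Nat.card_eq_fintype_card).symm
  rw [hcardG] at hfam
  rcases card_normalizer_aux A (fun n₁ h1 n₂ h2 h1' h2' => by
      rw [hA] at h1 h2 h1' h2' ⊢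
      exact h.norm hx h1 h1' h2 h2') with hn | hn
  · -- n = 1
    refine ⟨a, 1, (Subgroup.normalizer (A : Set G)).index, ⟨Or.inl rfl, ha2, ?_, ?_⟩, ?_⟩
    · rw [hn, ha] at hNidx
      rw [← hNidx] at hZidx
      have : Nat.card (Subgroup.center G) * (Subgroup.center G).index =
          Nat.card (Subgroup.center G) * (1 * ((Subgroup.normalizer (A : Set G)).index * a)) := by
        rw [hZidx]; ring
      exact Nat.eq_of_mul_eq_mul_left hzpos this
    · rw [hn] at hNidx
      rw [← hNidx] at hAidx
      have : (Subgroup.normalizer (A : Set G)).index = A.index :=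
        (Nat.eq_of_mul_eq_mul_left hApos hAidx).symm
      rw [this]
      omega
    · rw [hn] at hfam hNidx
      rw [← hNidx] at hfam
      have h5 : ((prim2X G).filter (fun u => u ∈ A)).card =
          Nat.card (Subgroup.center G) * (a - 1) := by
        have : Nat.card (Subgroup.center G) * (a - 1) + Nat.card (Subgroup.center G) =
            Nat.card (Subgroup.center G) * a := by
          obtain ⟨b, rfl⟩ : ∃ b, a = b + 1 := ⟨a - 1, by omega⟩
          simp; ring
        rw [ha] at hAX
        omega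
      rw [h5] at hfam
      have : Nat.card A * (prim2Fam x).card = Nat.card A *
          (Nat.card (Subgroup.center G) * ((Subgroup.normalizer (A : Set G)).index * (a - 1))) := by
        rw [mul_comm, hfam]; ring
      exact Nat.eq_of_mul_eq_mul_left hApos this
  · -- n = 2
    refine ⟨a, 2, (Subgroup.normalizer (A : Set G)).index, ⟨Or.inr rfl, ha2, ?_, ?_⟩, ?_⟩
    · rw [hn, ha] at hNidx
      rw [← hNidx] at hZidx
      have : Nat.card (Subgroup.center G) * (Subgroup.center G).index =
          Nat.card (Subgroup.center G) * (2 * ((Subgroup.normalizer (A : Set G)).index * a)) := by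
        rw [hZidx]; ring
      exact Nat.eq_of_mul_eq_mul_left hzpos this
    · rw [hn] at hNidx
      rw [← hNidx] at hAidx
      have h6 : Nat.card A * A.index =
          Nat.card A * (2 * (Subgroup.normalizer (A : Set G)).index) := by
        rw [hAidx]; ring
      have : A.index = 2 * (Subgroup.normalizer (A : Set G)).index :=
        Nat.eq_of_mul_eq_mul_left hApos h6
      rw [← this]
      omega
    · rw [hn] at hfam hNidx
      rw [← hNidx] at hfam
      have h5 : ((prim2X G).filter (fun u => u ∈ A)).card =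
          Nat.card (Subgroup.center G) * (a - 1) := by
        have : Nat.card (Subgroup.center G) * (a - 1) + Nat.card (Subgroup.center G) =
            Nat.card (Subgroup.center G) * a := by
          obtain ⟨b, rfl⟩ : ∃ b, a = b + 1 := ⟨a - 1, by omega⟩
          simp; ring
        rw [ha] at hAX
        omega
      rw [h5] at hfam
      have : (2 * Nat.card A) * (prim2Fam x).card = (2 * Nat.card A) *
          (Nat.card (Subgroup.center G) * ((Subgroup.normalizer (A : Set G)).index * (a - 1))) := by
        rw [mul_comm, hfam]; ring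
      exact Nat.eq_of_mul_eq_mul_left (by omega) this

end

end Cfsg.Agent.Helper56
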