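import Mathlib
import Cfsg.Agent.Helper56.Prim2D

/-!
# Primitive linear groups of degree two: `|G : Z(G)| ∈ {12, 24, 60}` (helper56)
-/

set_option autoImplicit false

namespace Cfsg.Agent.Helper56

open Matrix

noncomputable section

open Classical

variable {G : Type*} [Group G] [Fintype G]

theorem prim2_card_compl (H : Subgroup G) :
    (Finset.univ.filter (fun g : G => ¬ g ∈ H)).card + Nat.card H = Nat.card G := by
  rw [← prim2_card_filter_mem H, Nat.card_eq_fintype_card, ← Finset.card_univ, add_comm]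
  exact Finset.card_filter_add_card_filter_not _

variable {ρ : G →* Matrix (Fin 2) (Fin 2) ℂ}

theorem Prim2.index_center (h : Prim2 ρ) :
    (Subgroup.center G).index = 12 ∨ (Subgroup.center G).index = 24 ∨
      (Subgroup.center G).index = 60 := by
  obtain ⟨N, hN⟩ : ∃ N, N = (Subgroup.center G).index := ⟨_, rfl⟩
  obtain ⟨z, hz⟩ : ∃ z, z = Nat.card (Subgroup.center G) := ⟨_, rfl⟩
  rw [← hN]
  have hzpos : 0 < z := by rw [hz]; exact Nat.card_pos
  have hZidx : z * N = Nat.card G := by rw [hz, hN]; exact (Subgroup.center G).card_mul_index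
  have hNpos : 0 < N := by
    rw [hN]
    exact Nat.pos_of_ne_zero Subgroup.index_ne_zero_of_finite
  have hX : (prim2X G).card + z = Nat.card G := by
    rw [← prim2_card_compl (Subgroup.center G), hz]
    congr 2
    ext u
    simp only [mem_prim2X, Finset.mem_filter, Finset.mem_univ, true_and]
  have hsum := prim2_sum_fam (G := G)
  have hfam : ∀ f ∈ (prim2X G).image prim2Fam, ∃ a n m : ℕ, Prim2Fam N a n m ∧
      f.card = z * (m * (a - 1)) := by
    intro f hf
    obtain ⟨x, hx, rfl⟩ := Finset.mem_image.mp hf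
    rw [hN, hz]
    exact h.exists_fam ((mem_prim2X x).mp hx)
  have hbig : ∀ f ∈ (prim2X G).image prim2Fam, z * N ≤ 4 * f.card := by
    intro f hf
    obtain ⟨a, n, m, hF, hc⟩ := hfam f hf
    rw [hc]
    have h1 := hF.two_mul_le
    have h2 := hF.sub
    have h3 := hF.hN
    have hn2 : n ≤ 2 := by rcases hF.hn with rfl | rfl <;> omega
    have h4 : N ≤ 4 * (m * (a - 1)) := by
      have : n * (m * a) ≤ 2 * (m * a) := Nat.mul_le_mul_right _ hn2
      omega
    calc z * N ≤ z * (4 * (m * (a - 1))) := Nat.mul_le_mul_left _ h4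
      _ = 4 * (z * (m * (a - 1))) := by ring
  have hcard_le : ((prim2X G).image prim2Fam).card ≤ 3 := by
    have h1 : ((prim2X G).image prim2Fam).card * (z * N) ≤
        ∑ f ∈ (prim2X G).image prim2Fam, 4 * f.card := by
      rw [← smul_eq_mul, ← Finset.sum_const]
      exact Finset.sum_le_sum hbig
    rw [← Finset.mul_sum, hsum] at h1
    by_contra hcon
    push Not at hcon
    have h5 : 4 * (z * N) ≤ ((prim2X G).image prim2Fam).card * (z * N) :=
      Nat.mul_le_mul_right _ hcon
    have hzN : 0 < z * N := Nat.mul_pos hzpos hNpos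
    omega
  have hcard_pos : 0 < ((prim2X G).image prim2Fam).card := by
    rw [Finset.card_pos, Finset.image_nonempty]
    by_contra hcon
    rw [Finset.not_nonempty_iff_eq_empty] at hcon
    have hall : ∀ g : G, g ∈ Subgroup.center G := by
      intro g
      by_contra hg
      have h5 := (mem_prim2X g).mpr hg
      rw [hcon] at h5
      exact absurd h5 (Finset.notMem_empty g)
    have h6 := (h.ab ⊤ (fun u _ v _ => (Subgroup.mem_center_iff.mp (hall u) v).symm)).1
    exact h6 Subgroup.index_top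
  have hk : ((prim2X G).image prim2Fam).card = 1 ∨ ((prim2X G).image prim2Fam).card = 2 ∨
      ((prim2X G).image prim2Fam).card = 3 := by omega
  rcases hk with hk | hk | hk
  · exfalso
    obtain ⟨f₁, hf⟩ := Finset.card_eq_one.mp hk
    rw [hf, Finset.sum_singleton] at hsum
    obtain ⟨a, n, m, hF, hc⟩ := hfam f₁ (by rw [hf]; exact Finset.mem_singleton_self _)
    apply prim2_arith1 hF
    have e : z * (m * (a - 1) + 1) = z * N := by
      have : z * (m * (a - 1) + 1) = f₁.card + z := by rw [hc]; ring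
      omega
    exact Nat.eq_of_mul_eq_mul_left hzpos e
  · obtain ⟨f₁, f₂, hne, hf⟩ := Finset.card_eq_two.mp hk
    rw [hf, Finset.sum_pair hne] at hsum
    obtain ⟨a₁, n₁, m₁, hF₁, hc₁⟩ := hfam f₁ (by rw [hf]; simp)
    obtain ⟨a₂, n₂, m₂, hF₂, hc₂⟩ := hfam f₂ (by rw [hf]; simp)
    left
    apply prim2_arith2 hF₁ hF₂
    have e : z * (m₁ * (a₁ - 1) + m₂ * (a₂ - 1) + 1) = z * N := by
      have : z * (m₁ * (a₁ - 1) + m₂ * (a₂ - 1) + 1) = f₁.card + f₂.card + z := by
        rw [hc₁, hc₂]; ring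
      omega
    exact Nat.eq_of_mul_eq_mul_left hzpos e
  · obtain ⟨f₁, f₂, f₃, h12, h13, h23, hf⟩ := Finset.card_eq_three.mp hk
    rw [hf, Finset.sum_insert (by simp [h12, h13]), Finset.sum_pair h23] at hsum
    obtain ⟨a₁, n₁, m₁, hF₁, hc₁⟩ := hfam f₁ (by rw [hf]; simp)
    obtain ⟨a₂, n₂, m₂, hF₂, hc₂⟩ := hfam f₂ (by rw [hf]; simp)
    obtain ⟨a₃, n₃, m₃, hF₃, hc₃⟩ := hfam f₃ (by rw [hf]; simp)
    apply prim2_arith3 hF₁ hF₂ hF₃
    have e : z * (m₁ * (a₁ - 1) + m₂ * (a₂ - 1) + m₃ * (a₃ - 1) + 1) = z * N := by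
      have : z * (m₁ * (a₁ - 1) + m₂ * (a₂ - 1) + m₃ * (a₃ - 1) + 1) =
          f₁.card + f₂.card + f₃.card + z := by
        rw [hc₁, hc₂, hc₃]; ring
      omega
    exact Nat.eq_of_mul_eq_mul_left hzpos e

end

end Cfsg.Agent.Helper56
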