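import Mathlib
import Cfsg.Agent.Helper56.ZRing
import Cfsg.Agent.Helper56.ZSylow

/-!
# Fixed-point-free ring representations: elements of prime order acting on cyclic subgroups

* `Fpf.isUnit_prime`: a prime `q` is a unit in `R` as soon as the group has an element of order `q`.
* `Fpf.isUnit_orderOf`: the order of an element of finite order is a unit in `R`.
* `Fpf.commute_of_prime_normalizes`: an element of prime order normalizing a finite cyclic subgroup
  centralizes it (subgroups of order `pq` are cyclic).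
-/

namespace Cfsg.Agent.Helper56

section ZMetaA

variable {G : Type*} [Group G] {R : Type*} [Ring R] {ρ : G →* R}

/-- a prime is a unit in `R` if the group has an element of that order -/
theorem Fpf.isUnit_prime (h : Fpf ρ) {q : ℕ} (hq : q.Prime) {g : G} (hg : g ≠ 1)
    (hgq : g ^ q = 1) : IsUnit (q : R) := by
  have hu : IsUnit ((ρ g - 1) ^ q) := (h g hg).pow q
  have hc : Commute (ρ g) (-1 : R) := (Commute.one_right _).neg_right
  obtain ⟨r, hr⟩ := hc.exists_add_pow_prime_eq hq
  have hY : ρ g ^ q = 1 := by rw [← map_pow, hgq, map_one]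
  have key : ∃ c : R, (ρ g - 1) ^ q = (q : R) * c := by
    rcases hq.eq_two_or_odd' with h2 | hodd
    · subst h2
      refine ⟨1 + ρ g * (-1) * r, ?_⟩
      rw [sub_eq_add_neg, hr, hY]
      push_cast
      noncomm_ring
    · refine ⟨ρ g * (-1) * r, ?_⟩
      rw [sub_eq_add_neg, hr, hY, hodd.neg_one_pow]
      noncomm_ring
  obtain ⟨c, hc⟩ := key
  rw [hc] at hu
  obtain ⟨U, hU⟩ := hu
  have h1 : (q : R) * (c * ↑U⁻¹) = 1 := by
    rw [← mul_assoc, ← hU, Units.mul_inv]
  have h2 : (c * ↑U⁻¹) * (q : R) = 1 := by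
    rw [← (Nat.cast_commute q (c * ↑U⁻¹)).eq]; exact h1
  exact ⟨⟨(q : R), c * ↑U⁻¹, h1, h2⟩, rfl⟩

/-- the order of an element of finite order is a unit in `R` -/
theorem Fpf.isUnit_orderOf (h : Fpf ρ) (g : G) (hfin : 0 < orderOf g) :
    IsUnit ((orderOf g : ℕ) : R) := by
  have key : ∀ m : ℕ, 0 < m → m ∣ orderOf g → IsUnit (m : R) := by
    intro m
    induction m using Nat.strong_induction_on with
    | _ m ih =>
      intro hm hdvd
      by_cases h1 : m = 1
      · subst h1; simp
      · have hq : (m.minFac).Prime := Nat.minFac_prime h1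
        have hqd : m.minFac ∣ m := Nat.minFac_dvd m
        obtain ⟨k, hk⟩ := hqd
        have hkpos : 0 < k := by
          rcases Nat.eq_zero_or_pos k with h0 | h0
          · rw [h0, mul_zero] at hk; omega
          · exact h0
        have hklt : k < m := by
          have := hq.one_lt
          nlinarith
        have hkd : k ∣ orderOf g := (Dvd.intro_left m.minFac hk.symm).trans hdvd
        have hqo : m.minFac ∣ orderOf g := (Nat.minFac_dvd m).trans hdvd
        have hu1 := ih k hklt hkpos hkd
        -- an element of order `minFac m`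
        have hg' : g ^ (orderOf g / m.minFac) ≠ 1 := by
          apply pow_ne_one_of_lt_orderOf
          · have := Nat.div_pos (Nat.le_of_dvd hfin hqo) hq.pos
            omega
          · exact Nat.div_lt_self hfin hq.one_lt
        have hg'' : (g ^ (orderOf g / m.minFac)) ^ m.minFac = 1 := by
          rw [← pow_mul, Nat.div_mul_cancel hqo, pow_orderOf_eq_one]
        have hu2 := h.isUnit_prime hq hg' hg''
        have e : (m : R) = (m.minFac : R) * (k : R) := by
          conv_lhs => rw [hk]
          push_cast; rfl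
        rw [e]
        exact hu2.mul hu1
  exact key _ hfin dvd_rfl

/-- In a group with a fixed-point-free ring representation, an element of prime order that
normalizes a finite cyclic subgroup centralizes it. -/
theorem Fpf.commute_of_prime_normalizes [Nontrivial R] (h : Fpf ρ) {p : ℕ} (hp : p.Prime)
    {u y : G} (hu : u ^ p = 1) (hy : 0 < orderOf y)
    (hN : ∀ g ∈ Subgroup.zpowers y, u * g * u⁻¹ ∈ Subgroup.zpowers y) : Commute u y := by
  by_contra hnc
  have hu1 : u ≠ 1 := by
    rintro rfl
    exact hnc (Commute.one_left y)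
  have : Fact p.Prime := ⟨hp⟩
  have hord : orderOf u = p := orderOf_eq_prime hu hu1
  set m := orderOf y with hm
  -- powers of `u` normalize `⟨y⟩`
  have hNj : ∀ j : ℕ, ∀ g ∈ Subgroup.zpowers y, u ^ j * g * (u ^ j)⁻¹ ∈ Subgroup.zpowers y := by
    intro j
    induction j with
    | zero => intro g hg; simpa using hg
    | succ j ih =>
      intro g hg
      have e : u ^ (j + 1) * g * (u ^ (j + 1))⁻¹ = u * (u ^ j * g * (u ^ j)⁻¹) * u⁻¹ := by
        rw [pow_succ']; group
      rw [e]; exact hN _ (ih g hg)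
  -- nontrivial powers of `u` do not commute with `y`
  have hncj : ∀ j : ℕ, 0 < j → j < p → ¬ Commute (u ^ j) y := by
    intro j hj0 hjp hc
    have hcop : j.Coprime (orderOf u) := by
      rw [hord]
      exact (Nat.coprime_of_lt_prime hj0.ne' hjp hp).symm
    obtain ⟨k, hk⟩ := exists_pow_eq_self_of_coprime hcop
    apply hnc
    rw [← hk]
    exact hc.pow_left k
  -- the conjugates of `u` under `⟨y⟩`
  have ha1 : ∀ k : ℕ, y ^ k * u * (y ^ k)⁻¹ ≠ 1 := by
    intro k e
    apply hu1
    simpa using e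
  have hap : ∀ k : ℕ, (y ^ k * u * (y ^ k)⁻¹) ^ p = 1 := by
    intro k
    rw [conj_pow, hu]; group
  have e1 : ∑ k ∈ Finset.range m, ∑ j ∈ Finset.range p, ρ (y ^ k * u * (y ^ k)⁻¹) ^ j = 0 :=
    Finset.sum_eq_zero (fun k _ => h.geom_sum_eq_zero (ha1 k) (hap k))
  rw [Finset.sum_comm] at e1
  -- the elements `w_j`
  have hwmem : ∀ j : ℕ, u ^ j * y⁻¹ * (u ^ j)⁻¹ ∈ Subgroup.zpowers y := fun j =>
    hNj j _ (Subgroup.inv_mem _ (Subgroup.mem_zpowers y))
  have hpowm : ∀ g ∈ Subgroup.zpowers y, g ^ m = 1 := by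
    intro g hg
    obtain ⟨i, rfl⟩ := Subgroup.mem_zpowers_iff.mp hg
    rw [← zpow_natCast, ← zpow_mul, mul_comm, zpow_mul, zpow_natCast, hm, pow_orderOf_eq_one,
      one_zpow]
  have hcomm : ∀ j : ℕ, Commute y (u ^ j * y⁻¹ * (u ^ j)⁻¹) := by
    intro j
    obtain ⟨i, hi⟩ := Subgroup.mem_zpowers_iff.mp (hwmem j)
    rw [← hi]
    exact (Commute.refl y).zpow_right i
  have e2 : ∀ j : ℕ, ∑ k ∈ Finset.range m, ρ (y ^ k * u * (y ^ k)⁻¹) ^ j
      = (∑ k ∈ Finset.range m, ρ (y * (u ^ j * y⁻¹ * (u ^ j)⁻¹)) ^ k) * ρ (u ^ j) := by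
    intro j
    rw [Finset.sum_mul]
    apply Finset.sum_congr rfl
    intro k _
    rw [← map_pow, ← map_pow, ← map_mul]
    congr 1
    rw [conj_pow, (hcomm j).mul_pow, conj_pow, inv_pow]
    group
  have e3 : ∑ j ∈ Finset.range p,
      (∑ k ∈ Finset.range m, ρ (y * (u ^ j * y⁻¹ * (u ^ j)⁻¹)) ^ k) * ρ (u ^ j) = 0 := by
    rw [← e1]
    exact Finset.sum_congr rfl (fun j _ => (e2 j).symm)
  rw [Finset.sum_eq_single 0] at e3
  · have hm0 : (m : R) = 0 := by simpa using e3
    have hunit := h.isUnit_orderOf y hy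
    rw [← hm, hm0] at hunit
    exact not_isUnit_zero hunit
  · intro j hj hj0
    have hjp : j < p := Finset.mem_range.mp hj
    have hw1 : y * (u ^ j * y⁻¹ * (u ^ j)⁻¹) ≠ 1 := by
      intro e
      apply hncj j (Nat.pos_of_ne_zero hj0) hjp
      have e' : u ^ j * y = y * u ^ j := by
        have := congrArg (fun z => z * u ^ j * y) e
        simp only [one_mul] at this
        rw [← this]; group
      exact e'
    have hwm : (y * (u ^ j * y⁻¹ * (u ^ j)⁻¹)) ^ m = 1 :=
      hpowm _ (Subgroup.mul_mem _ (Subgroup.mem_zpowers y) (hwmem j))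
    rw [h.geom_sum_eq_zero hw1 hwm, zero_mul]
  · intro h0
    exact absurd (Finset.mem_range.mpr hp.pos) h0

end ZMetaA

end Cfsg.Agent.Helper56
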