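import Mathlib

/-!
# Metacyclic presentations

A finite group of order `n * m` generated by `x, y` with `x ^ n = 1`, `y ^ m = 1`,
`x⁻¹ * y * x = y ^ r` is isomorphic to the group presented by these relations.
-/

namespace Cfsg.Agent.Helper56

section ZMetaB

variable {G : Type*} [Group G]

/-- iterated conjugation formula -/
theorem conj_pow_formula {x y : G} {r : ℕ} (hr : x⁻¹ * y * x = y ^ r) (k j : ℕ) :
    (x ^ k)⁻¹ * y ^ j * x ^ k = y ^ (j * r ^ k) := by
  have h1 : ∀ j : ℕ, x⁻¹ * y ^ j * x = y ^ (j * r) := by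
    intro j
    have := conj_pow (a := x⁻¹) (b := y) (i := j)
    rw [inv_inv] at this
    rw [← this, hr, ← pow_mul, mul_comm]
  induction k generalizing j with
  | zero => simp
  | succ k ih =>
    have e : (x ^ (k + 1))⁻¹ * y ^ j * x ^ (k + 1) = x⁻¹ * ((x ^ k)⁻¹ * y ^ j * x ^ k) * x := by
      rw [pow_succ]; group
    rw [e, ih, h1, pow_succ, mul_assoc]

/-- the relation set of the metacyclic presentation -/
def metaRels (n m r : ℕ) : Set (FreeGroup (Fin 2)) :=
  {FreeGroup.of (0 : Fin 2) ^ n, FreeGroup.of (1 : Fin 2) ^ m,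
    (FreeGroup.of (0 : Fin 2))⁻¹ * FreeGroup.of 1 * FreeGroup.of 0 *
      (FreeGroup.of (1 : Fin 2) ^ r)⁻¹}

theorem metaRels_card_le (n m r : ℕ) (hn : 0 < n) (hm : 0 < m) :
    Finite (PresentedGroup (metaRels n m r)) ∧ Nat.card (PresentedGroup (metaRels n m r)) ≤ n * m := by
  set a : PresentedGroup (metaRels n m r) := PresentedGroup.of 0 with ha
  set b : PresentedGroup (metaRels n m r) := PresentedGroup.of 1 with hb
  have han : a ^ n = 1 := by
    have h1 : PresentedGroup.mk (metaRels n m r) (FreeGroup.of (0 : Fin 2) ^ n) = 1 :=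
      (QuotientGroup.eq_one_iff _).mpr (Subgroup.subset_normalClosure (by simp [metaRels]))
    rw [map_pow] at h1; exact h1
  have hbm : b ^ m = 1 := by
    have h1 : PresentedGroup.mk (metaRels n m r) (FreeGroup.of (1 : Fin 2) ^ m) = 1 :=
      (QuotientGroup.eq_one_iff _).mpr (Subgroup.subset_normalClosure (by simp [metaRels]))
    rw [map_pow] at h1; exact h1
  have hab : a⁻¹ * b * a = b ^ r := by
    have h1 : PresentedGroup.mk (metaRels n m r) ((FreeGroup.of (0 : Fin 2))⁻¹ * FreeGroup.of 1 *
        FreeGroup.of 0 * (FreeGroup.of (1 : Fin 2) ^ r)⁻¹) = 1 :=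
      (QuotientGroup.eq_one_iff _).mpr (Subgroup.subset_normalClosure (by simp [metaRels]))
    rw [map_mul, map_mul, map_mul, map_inv, map_inv, map_pow] at h1
    exact mul_inv_eq_one.mp h1
  let g : Fin n × Fin m → PresentedGroup (metaRels n m r) := fun ij => a ^ (ij.1 : ℕ) * b ^ (ij.2 : ℕ)
  have hmem : ∀ i j : ℕ, a ^ i * b ^ j ∈ Set.range g := by
    intro i j
    refine ⟨(⟨i % n, Nat.mod_lt _ hn⟩, ⟨j % m, Nat.mod_lt _ hm⟩), ?_⟩
    show a ^ (i % n) * b ^ (j % m) = a ^ i * b ^ j
    rw [← pow_eq_pow_mod i han, ← pow_eq_pow_mod j hbm]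
  have hTb : ∀ z ∈ Set.range g, z * b ∈ Set.range g := by
    rintro _ ⟨⟨i, j⟩, rfl⟩
    have e : a ^ (i : ℕ) * b ^ (j : ℕ) * b = a ^ (i : ℕ) * b ^ ((j : ℕ) + 1) := by
      rw [pow_succ, mul_assoc]
    show a ^ (i : ℕ) * b ^ (j : ℕ) * b ∈ Set.range g
    rw [e]; exact hmem _ _
  have hTa : ∀ z ∈ Set.range g, z * a ∈ Set.range g := by
    rintro _ ⟨⟨i, j⟩, rfl⟩
    have e1 := conj_pow_formula hab 1 (j : ℕ)
    simp only [pow_one] at e1
    have e : a ^ (i : ℕ) * b ^ (j : ℕ) * a = a ^ ((i : ℕ) + 1) * b ^ ((j : ℕ) * r) := by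
      rw [← e1, pow_succ]; group
    show a ^ (i : ℕ) * b ^ (j : ℕ) * a ∈ Set.range g
    rw [e]; exact hmem _ _
  have hTak : ∀ k : ℕ, ∀ z ∈ Set.range g, z * a ^ k ∈ Set.range g := by
    intro k
    induction k with
    | zero => intro z hz; simpa using hz
    | succ k ih =>
      intro z hz
      rw [pow_succ, ← mul_assoc]
      exact hTa _ (ih z hz)
  have hTbk : ∀ k : ℕ, ∀ z ∈ Set.range g, z * b ^ k ∈ Set.range g := by
    intro k
    induction k with
    | zero => intro z hz; simpa using hz
    | succ k ih =>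
      intro z hz
      rw [pow_succ, ← mul_assoc]
      exact hTb _ (ih z hz)
  have hainv : a⁻¹ = a ^ (n - 1) := by
    rw [inv_eq_iff_mul_eq_one, ← pow_succ']
    have : n - 1 + 1 = n := by omega
    rw [this, han]
  have hbinv : b⁻¹ = b ^ (m - 1) := by
    rw [inv_eq_iff_mul_eq_one, ← pow_succ']
    have : m - 1 + 1 = m := by omega
    rw [this, hbm]
  have hall : ∀ z : PresentedGroup (metaRels n m r), z ∈ Set.range g := by
    intro z
    have hz : z ∈ Subgroup.closure (Set.range (PresentedGroup.of :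
        Fin 2 → PresentedGroup (metaRels n m r))) := by
      rw [PresentedGroup.closure_range_of]; trivial
    induction hz using Subgroup.closure_induction_right with
    | one => exact ⟨(⟨0, hn⟩, ⟨0, hm⟩), by simp [g]⟩
    | mul_right z _ w hw ih =>
      obtain ⟨t, rfl⟩ := hw
      fin_cases t
      · exact hTa _ ih
      · exact hTb _ ih
    | mul_inv_cancel z _ w hw ih =>
      obtain ⟨t, rfl⟩ := hw
      fin_cases t
      · show z * a⁻¹ ∈ Set.range g
        rw [hainv]; exact hTak _ _ ih
      · show z * b⁻¹ ∈ Set.range g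
        rw [hbinv]; exact hTbk _ _ ih
  have hsurj : Function.Surjective g := hall
  have hfin : Finite (PresentedGroup (metaRels n m r)) := Finite.of_surjective g hsurj
  refine ⟨hfin, ?_⟩
  have := Nat.card_le_card_of_surjective g hsurj
  simpa using this

/-- A finite group of order `n * m` generated by `x`, `y` subject to the metacyclic relations
is isomorphic to the presented group. -/
theorem nonempty_mulEquiv_metaRels [Finite G] {x y : G} {n m r : ℕ} (hn : 0 < n) (hm : 0 < m)
    (hx : x ^ n = 1) (hy : y ^ m = 1) (hr : x⁻¹ * y * x = y ^ r)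
    (hcard : Nat.card G = n * m) (hgen : Subgroup.closure {x, y} = ⊤) :
    Nonempty (G ≃* PresentedGroup (metaRels n m r)) := by
  obtain ⟨hfin, hle⟩ := metaRels_card_le n m r hn hm
  let f : Fin 2 → G := ![x, y]
  have hrel : ∀ w ∈ metaRels n m r, FreeGroup.lift f w = 1 := by
    intro w hw
    simp only [metaRels, Set.mem_insert_iff, Set.mem_singleton_iff] at hw
    rcases hw with rfl | rfl | rfl
    · simp [f, hx]
    · simp [f, hy]
    · simp [f, hr]
  have hsurj : Function.Surjective (PresentedGroup.toGroup hrel) := by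
    rw [← MonoidHom.range_eq_top, eq_top_iff, ← hgen, Subgroup.closure_le]
    rintro g (rfl | rfl)
    · exact ⟨PresentedGroup.of 0, by rw [PresentedGroup.toGroup.of]; rfl⟩
    · exact ⟨PresentedGroup.of 1, by rw [PresentedGroup.toGroup.of]; rfl⟩
  have hcard2 : Nat.card (PresentedGroup (metaRels n m r)) = Nat.card G :=
    le_antisymm (hcard ▸ hle) (Nat.card_le_card_of_surjective _ hsurj)
  have hbij : Function.Bijective (PresentedGroup.toGroup hrel) :=
    (Nat.bijective_iff_surjective_and_card _).mpr ⟨hsurj, hcard2⟩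
  exact ⟨(MulEquiv.ofBijective _ hbij).symm⟩

/-- A group generated by two commuting elements is commutative. -/
theorem comm_of_closure_pair {Q : Type*} [Group Q] {x y : Q} (hgen : Subgroup.closure {x, y} = ⊤)
    (hxy : x * y = y * x) : ∀ a b : Q, a * b = b * a := by
  have h1 : ∀ a : Q, a ∈ Subgroup.centralizer ({x, y} : Set Q) := by
    intro a
    have hle : Subgroup.closure ({x, y} : Set Q) ≤ Subgroup.centralizer ({x, y} : Set Q) := by
      rw [Subgroup.closure_le]
      rintro g (rfl | rfl)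
      · rw [SetLike.mem_coe, Subgroup.mem_centralizer_iff]
        rintro h (rfl | rfl)
        · rfl
        · exact hxy.symm
      · rw [SetLike.mem_coe, Subgroup.mem_centralizer_iff]
        rintro h (rfl | rfl)
        · exact hxy
        · rfl
    exact hle (hgen ▸ Subgroup.mem_top a)
  intro a b
  have hle : Subgroup.closure ({x, y} : Set Q) ≤ Subgroup.centralizer ({a} : Set Q) := by
    rw [Subgroup.closure_le]
    intro g hg
    rw [SetLike.mem_coe, Subgroup.mem_centralizer_iff]
    intro h hh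
    rw [Set.mem_singleton_iff.mp hh]
    exact ((Subgroup.mem_centralizer_iff.mp (h1 a)) g hg).symm
  have hb : b ∈ Subgroup.centralizer ({a} : Set Q) := hle (hgen ▸ Subgroup.mem_top b)
  exact (Subgroup.mem_centralizer_iff.mp hb) a rfl

/-- If `G` is generated by `x, y` and `M` is a normal subgroup containing the commutator of `x`
and `y`, then `M` contains the commutator subgroup. -/
theorem commutator_le_of_closure_pair {x y : G} (hgen : Subgroup.closure {x, y} = ⊤)
    (M : Subgroup G) [M.Normal] (hxy : x * y * x⁻¹ * y⁻¹ ∈ M) : commutator G ≤ M := by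
  have hq : (QuotientGroup.mk' M x) * (QuotientGroup.mk' M y) =
      (QuotientGroup.mk' M y) * (QuotientGroup.mk' M x) := by
    have h1 : QuotientGroup.mk' M (x * y * x⁻¹ * y⁻¹) = 1 := (QuotientGroup.eq_one_iff _).mpr hxy
    rw [map_mul, map_mul, map_mul, map_inv, map_inv] at h1
    rw [mul_inv_eq_one, mul_inv_eq_iff_eq_mul] at h1
    exact h1
  have hgen' : Subgroup.closure {QuotientGroup.mk' M x, QuotientGroup.mk' M y} = ⊤ := by
    have h1 := MonoidHom.map_closure (QuotientGroup.mk' M) ({x, y} : Set G)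
    rw [hgen, Set.image_pair] at h1
    rw [← h1, ← MonoidHom.range_eq_map, MonoidHom.range_eq_top]
    exact QuotientGroup.mk'_surjective M
  have hab := comm_of_closure_pair hgen' hq
  rw [commutator_def, Subgroup.commutator_le]
  intro g₁ _ g₂ _
  rw [← QuotientGroup.eq_one_iff, commutatorElement_def]
  have e := hab (QuotientGroup.mk' M g₁) (QuotientGroup.mk' M g₂)
  show QuotientGroup.mk' M (g₁ * g₂ * g₁⁻¹ * g₂⁻¹) = 1
  rw [map_mul, map_mul, map_mul, map_inv, map_inv, e]
  group

/-- powers commuting with `y` are closed under gcd -/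
theorem commute_pow_gcd {x y : G} {a b : ℕ} (ha : Commute (x ^ a) y) (hb : Commute (x ^ b) y) :
    Commute (x ^ (Nat.gcd a b)) y := by
  have e : x ^ (Nat.gcd a b) = (x ^ a) ^ (Nat.gcdA a b) * (x ^ b) ^ (Nat.gcdB a b) := by
    rw [← zpow_natCast x (Nat.gcd a b), Nat.gcd_eq_gcd_ab, zpow_add, zpow_mul, zpow_mul,
      zpow_natCast, zpow_natCast]
  rw [e]
  exact (ha.zpow_left _).mul_left (hb.zpow_left _)

/-- If `x ^ n` and all `x ^ (n / p)` (`p` a prime divisor of `n`) commute with `y`, then so does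
`x ^ (n / rad n)`. -/
theorem commute_pow_div_radical {x y : G} {n : ℕ} (hn : 0 < n) (h0 : Commute (x ^ n) y)
    (hp : ∀ p : ℕ, p.Prime → p ∣ n → Commute (x ^ (n / p)) y) :
    Commute (x ^ (n / ∏ p ∈ n.primeFactors, p)) y := by
  have key : ∀ S : Finset ℕ, S ⊆ n.primeFactors →
      (∏ p ∈ S, p) ∣ n ∧ Commute (x ^ (n / ∏ p ∈ S, p)) y := by
    intro S
    induction S using Finset.induction_on with
    | empty => intro _; simpa using h0
    | insert q S hq ih =>
      intro hS
      have hqn : q ∈ n.primeFactors := hS (Finset.mem_insert_self q S)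
      have hSn : S ⊆ n.primeFactors := fun p hp => hS (Finset.mem_insert_of_mem hp)
      obtain ⟨hPn, hc⟩ := ih hSn
      have hqp : q.Prime := Nat.prime_of_mem_primeFactors hqn
      have hqd : q ∣ n := Nat.dvd_of_mem_primeFactors hqn
      have hcop : Nat.Coprime q (∏ p ∈ S, p) := by
        apply Nat.Coprime.prod_right
        intro p hp
        have hpp : p.Prime := Nat.prime_of_mem_primeFactors (hSn hp)
        exact (Nat.coprime_primes hqp hpp).mpr (fun e => hq (e ▸ hp))
      have hmul : q * ∏ p ∈ S, p ∣ n := Nat.Coprime.mul_dvd_of_dvd_of_dvd hcop hqd hPn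
      rw [Finset.prod_insert hq]
      refine ⟨hmul, ?_⟩
      obtain ⟨c, hc'⟩ := hmul
      have hPpos : 0 < ∏ p ∈ S, p := Nat.pos_of_ne_zero (fun e => by rw [e] at hPn; simp at hPn; omega)
      have e1 : n / ∏ p ∈ S, p = q * c := by
        rw [hc']; rw [Nat.mul_comm q, Nat.mul_assoc, Nat.mul_div_cancel_left _ hPpos]
      have e2 : n / q = (∏ p ∈ S, p) * c := by
        rw [hc', Nat.mul_assoc, Nat.mul_div_cancel_left _ hqp.pos]
      have e3 : n / (q * ∏ p ∈ S, p) = c := by
        rw [hc', Nat.mul_div_cancel_left _ (Nat.mul_pos hqp.pos hPpos)]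
      have hg := commute_pow_gcd hc (hp q hqp hqd)
      rw [e1, e2, Nat.gcd_mul_right, hcop.gcd_eq_one, one_mul] at hg
      rw [e3]; exact hg
  exact (key _ subset_rfl).2

end ZMetaB

end Cfsg.Agent.Helper56
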