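import Mathlib
import Cfsg.Agent.Helper56.ZMetaA
import Cfsg.Agent.Helper56.ZMetaB

/-!
# The metacyclic presentation of a `Z`-group with a fixed-point-free ring representation

`Fpf.zgroup_presentation`: a finite group all of whose Sylow subgroups are cyclic and which has a
fixed-point-free ring representation is `⟨x, y | x^n, y^m, x⁻¹ y x = y^r⟩` with
`gcd(n, m) = gcd(r - 1, m) = 1` and `r^(n / rad n) ≡ 1 (mod m)`.
-/

namespace Cfsg.Agent.Helper56

section ZMetaC

variable {G : Type*} [Group G] {R : Type*} [Ring R] {ρ : G →* R}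

theorem exists_zpowers_eq_of_isCyclic (K : Subgroup G) [IsCyclic K] :
    ∃ y : G, K = Subgroup.zpowers y := by
  obtain ⟨g, hg⟩ := IsCyclic.exists_generator (α := K)
  refine ⟨(g : G), le_antisymm ?_ ?_⟩
  · intro a ha
    obtain ⟨k, hk⟩ := Subgroup.mem_zpowers_iff.mp (hg ⟨a, ha⟩)
    rw [Subgroup.mem_zpowers_iff]
    exact ⟨k, by simpa using congrArg Subtype.val hk⟩
  · rw [Subgroup.zpowers_le]; exact g.2

/-- Metacyclic presentation of `Z`-groups with a fixed-point-free ring representation. -/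
theorem Fpf.zgroup_presentation [Nontrivial R] [Finite G] (h : Fpf ρ) [hZ : IsZGroup G] :
    ∃ n m r : ℕ, 0 < n ∧ 0 < m ∧ Nat.Coprime (r - 1) m ∧ Nat.Coprime n m ∧ 1 ≤ r ∧
      r ^ (n / ∏ p ∈ n.primeFactors, p) % m = 1 % m ∧
      Nonempty (G ≃* PresentedGroup (metaRels n m r)) := by
  have hcop := IsZGroup.coprime_commutator_index G
  obtain ⟨H, hH⟩ := Subgroup.exists_right_complement'_of_coprime hcop
  have hNc : IsCyclic (commutator G) := IsZGroup.isCyclic_commutator G
  have hHc : IsCyclic H := by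
    have e : Abelianization G ≃* H := hH.symm.QuotientMulEquiv
    exact isCyclic_of_surjective _ e.surjective
  obtain ⟨y, hy⟩ := exists_zpowers_eq_of_isCyclic (commutator G)
  obtain ⟨x, hx⟩ := exists_zpowers_eq_of_isCyclic H
  set m := orderOf y with hm
  set n := orderOf x with hn
  have hmpos : 0 < m := orderOf_pos y
  have hnpos : 0 < n := orderOf_pos x
  have hcardN : Nat.card (commutator G) = m := by rw [hy, Nat.card_zpowers]
  have hcardH : Nat.card H = n := by rw [hx, Nat.card_zpowers]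
  have hcard : Nat.card G = n * m := by
    rw [← hH.card_mul_card, hcardN, hcardH, mul_comm]
  have hnm : Nat.Coprime n m := by
    have h1 := hcop
    rw [hH.symm.index_eq_card, hcardN, hcardH] at h1
    exact h1.symm
  have hNn : ∀ g : G, ∀ a ∈ Subgroup.zpowers y, g * a * g⁻¹ ∈ Subgroup.zpowers y := by
    intro g a ha
    rw [← hy] at ha ⊢
    exact (inferInstance : (commutator G).Normal).conj_mem a ha g
  have hxy : x⁻¹ * y * x ∈ Subgroup.zpowers y := by
    have := hNn x⁻¹ y (Subgroup.mem_zpowers y)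
    simpa using this
  obtain ⟨k, hk⟩ := Subgroup.mem_zpowers_iff.mp hxy
  set r := (k % (m : ℤ)).toNat + m with hr
  have hyr : x⁻¹ * y * x = y ^ r := by
    have h1 : (0 : ℤ) ≤ k % (m : ℤ) := Int.emod_nonneg _ (by exact_mod_cast hmpos.ne')
    rw [← hk, hr, pow_add, hm, pow_orderOf_eq_one, mul_one, ← zpow_natCast,
      Int.toNat_of_nonneg (hm ▸ h1), zpow_mod_orderOf]
  have hgen : Subgroup.closure {x, y} = ⊤ := by
    rw [eq_top_iff, ← hH.sup_eq_top, sup_le_iff]
    constructor
    · rw [hy, Subgroup.zpowers_le]; exact Subgroup.subset_closure (by simp)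
    · rw [hx, Subgroup.zpowers_le]; exact Subgroup.subset_closure (by simp)
  have hr1 : 1 ≤ r := by omega
  have hC1 : Nat.Coprime (r - 1) m := by
    have hMn : (Subgroup.zpowers (y ^ (r - 1))).Normal := by
      constructor
      intro a ha g
      obtain ⟨i, rfl⟩ := Subgroup.mem_zpowers_iff.mp ha
      obtain ⟨t, ht⟩ := Subgroup.mem_zpowers_iff.mp (hNn g y (Subgroup.mem_zpowers y))
      rw [Subgroup.mem_zpowers_iff]
      refine ⟨t * i, ?_⟩
      have e1 : g * (y ^ (r - 1)) ^ i * g⁻¹ = ((g * y * g⁻¹) ^ (r - 1)) ^ i := by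
        rw [conj_pow, conj_zpow]
      rw [e1, ← ht, zpow_mul]
      congr 1
      rw [← zpow_natCast, ← zpow_natCast, ← zpow_mul, ← zpow_mul, mul_comm]
    have hcm : x * y * x⁻¹ * y⁻¹ ∈ Subgroup.zpowers (y ^ (r - 1)) := by
      have e1 : y ^ (r - 1) = y⁻¹ * x⁻¹ * y * x := by
        have : y ^ r = y ^ (r - 1) * y := by
          rw [← pow_succ]; congr 1; omega
        have e2 : y ^ (r - 1) = y ^ r * y⁻¹ := by rw [this, mul_inv_cancel_right]
        rw [e2, ← hyr]
        have hc : Commute (x⁻¹ * y * x) y := by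
          rw [hyr]; exact (Commute.refl y).pow_left r
        have := hc.eq
        calc x⁻¹ * y * x * y⁻¹ = y⁻¹ * (y * (x⁻¹ * y * x)) * y⁻¹ := by group
          _ = y⁻¹ * ((x⁻¹ * y * x) * y) * y⁻¹ := by rw [this]
          _ = y⁻¹ * x⁻¹ * y * x := by group
      have e2 : x * y * x⁻¹ * y⁻¹ = (y * x) * (y⁻¹ * x⁻¹ * y * x)⁻¹ * (y * x)⁻¹ := by group
      rw [e2, ← e1]
      exact hMn.conj_mem _ (Subgroup.inv_mem _ (Subgroup.mem_zpowers _)) _
    have hle := commutator_le_of_closure_pair hgen (Subgroup.zpowers (y ^ (r - 1))) hcm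
    have hyM : y ∈ Subgroup.zpowers (y ^ (r - 1)) := by
      apply hle
      rw [hy]; exact Subgroup.mem_zpowers y
    obtain ⟨c, hc⟩ := Subgroup.mem_zpowers_iff.mp hyM
    have h1 : y ^ (((r - 1 : ℕ) : ℤ) * c - 1) = 1 := by
      rw [zpow_sub, zpow_mul, zpow_natCast, hc, zpow_one, mul_inv_cancel]
    obtain ⟨d, hd⟩ := orderOf_dvd_iff_zpow_eq_one.mpr h1
    rw [← Nat.isCoprime_iff_coprime]
    refine ⟨c, -d, ?_⟩
    rw [← hm] at hd
    linarith
  have hC3 : r ^ (n / ∏ p ∈ n.primeFactors, p) % m = 1 % m := by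
    have hcomm := commute_pow_div_radical (x := x) (y := y) hnpos
      (by rw [hn, pow_orderOf_eq_one]; exact Commute.one_left y) (by
        intro p hp hpn
        apply h.commute_of_prime_normalizes hp (u := x ^ (n / p)) _ hmpos (hNn _)
        rw [← pow_mul, Nat.div_mul_cancel hpn, hn, pow_orderOf_eq_one])
    have e := conj_pow_formula hyr (n / ∏ p ∈ n.primeFactors, p) 1
    rw [pow_one, one_mul] at e
    have e2 : (x ^ (n / ∏ p ∈ n.primeFactors, p))⁻¹ * y * x ^ (n / ∏ p ∈ n.primeFactors, p) = y := by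
      rw [mul_assoc, ← hcomm.eq, inv_mul_cancel_left]
    rw [e2] at e
    have e3 : y ^ (r ^ (n / ∏ p ∈ n.primeFactors, p)) = y ^ 1 := by rw [pow_one]; exact e.symm
    exact pow_eq_pow_iff_modEq.mp e3
  exact ⟨n, m, r, hnpos, hmpos, hC1, hnm, hr1, hC3,
    nonempty_mulEquiv_metaRels hnpos hmpos (pow_orderOf_eq_one x) (pow_orderOf_eq_one y) hyr
      hcard hgen⟩

end ZMetaC

end Cfsg.Agent.Helper56
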