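import Mathlib

/-!
# Two auxiliary lemmas for Zassenhaus groups with a regular normal subgroup (helper56)

* `zassReg_comm_of_zgroup_fpf`: a finite `Z`-group with a fixed-point-free automorphism is abelian.
* `zassReg_card_of_field_aut`: a finite field with an automorphism of prime order `r` whose only
  fixed points are `0` and `1` has `2 ^ r` elements (Artin).
-/

set_option autoImplicit false

namespace Cfsg.Agent.Helper56

/-- A finite group all of whose Sylow subgroups are cyclic and which has a fixed-point-free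
automorphism is abelian. -/
theorem zassReg_comm_of_zgroup_fpf {K : Type*} [Group K] [Finite K] [IsZGroup K] (φ : MulAut K)
    (hφ : ∀ k : K, φ k = k → k = 1) : ∀ x y : K, x * y = y * x := by
  classical
  have hcyc : IsCyclic (commutator K) := IsZGroup.isCyclic_commutator K
  obtain ⟨x₀, hx₀⟩ := hcyc.exists_generator
  have hgen : ∀ y : K, y ∈ commutator K → ∃ n : ℤ, (x₀ : K) ^ n = y := by
    intro y hy
    obtain ⟨n, hn⟩ := Subgroup.mem_zpowers_iff.mp (hx₀ ⟨y, hy⟩)
    exact ⟨n, by simpa using congrArg Subtype.val hn⟩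
  have hchar : (commutator K).Characteristic := by
    unfold commutator; infer_instance
  have hmem : ∀ ψ : MulAut K, ∀ y : K, y ∈ commutator K → ψ y ∈ commutator K := by
    intro ψ y hy
    have h1 := Subgroup.characteristic_iff_le_comap.mp hchar ψ
    exact h1 hy
  have hnorm : (commutator K).Normal := inferInstance
  -- conjugation and `φ` act on `x₀` by powers
  obtain ⟨m, hm⟩ := hgen (φ x₀) (hmem φ _ x₀.2)
  obtain ⟨m', hm'⟩ := hgen (φ⁻¹ x₀) (hmem φ⁻¹ _ x₀.2)
  have hmm' : (x₀ : K) ^ (m' * m) = x₀ := by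
    have h1 : φ (φ⁻¹ (x₀ : K)) = x₀ := by simp
    rw [← hm', map_zpow, ← hm, ← zpow_mul, mul_comm] at h1
    exact h1
  -- every element `k⁻¹ * φ k` commutes with `x₀`
  have hcomm1 : ∀ k : K, (k⁻¹ * φ k) * (x₀ : K) = (x₀ : K) * (k⁻¹ * φ k) := by
    intro k
    obtain ⟨j, hj⟩ := hgen (k * x₀ * k⁻¹) (hnorm.conj_mem _ x₀.2 k)
    have h2 : φ k * (x₀ : K) * (φ k)⁻¹ = k * x₀ * k⁻¹ := by
      have h3 : φ (k * φ⁻¹ (x₀ : K) * k⁻¹) = φ k * (x₀ : K) * (φ k)⁻¹ := by
        rw [map_mul, map_mul, map_inv]; simp
      rw [← h3, ← hm', ← conj_zpow, ← hj, ← zpow_mul, map_zpow, ← hm, ← zpow_mul]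
      rw [show m * (j * m') = (m' * m) * j by ring, zpow_mul, hmm']
    calc (k⁻¹ * φ k) * (x₀ : K) = k⁻¹ * (φ k * (x₀ : K) * (φ k)⁻¹) * φ k := by group
      _ = k⁻¹ * (k * x₀ * k⁻¹) * φ k := by rw [h2]
      _ = (x₀ : K) * (k⁻¹ * φ k) := by group
  -- the map `k ↦ k⁻¹ * φ k` is onto
  have hinj : Function.Injective (fun k : K => k⁻¹ * φ k) := by
    intro k₁ k₂ h
    have h1 : k₁⁻¹ * φ k₁ = k₂⁻¹ * φ k₂ := h
    have h2 : φ (k₂ * k₁⁻¹) = k₂ * k₁⁻¹ := by
      rw [map_mul, map_inv]
      have : φ k₂ = k₂ * (k₁⁻¹ * φ k₁) := by rw [h1]; group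
      rw [this]; group
    have h3 := hφ _ h2
    have : k₂ = k₁ := by
      calc k₂ = (k₂ * k₁⁻¹) * k₁ := by group
        _ = k₁ := by rw [h3, one_mul]
    exact this.symm
  have hsurj : Function.Surjective (fun k : K => k⁻¹ * φ k) := Finite.surjective_of_injective hinj
  have hcen : commutator K ≤ Subgroup.center K := by
    intro y hy
    obtain ⟨n, rfl⟩ := hgen y hy
    rw [Subgroup.mem_center_iff]
    intro g
    obtain ⟨k, rfl⟩ := hsurj g
    have h1 : Commute (k⁻¹ * φ k) (x₀ : K) := hcomm1 k
    exact (h1.zpow_right n).eq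
  have hker : (Abelianization.of : K →* Abelianization K).ker ≤ Subgroup.center K := by
    rw [Abelianization.ker_of]
    exact hcen
  have hmc := (Abelianization.of : K →* Abelianization K).isMulCommutative_of_isCyclic_of_ker_le_center hker
  exact fun x y => hmc.is_comm.comm x y

/-- Artin: a finite field with an automorphism `σ` of prime order `r` whose only fixed points are
`0` and `1` has `2 ^ r` elements. -/
theorem zassReg_card_of_field_aut {F : Type*} [Field F] [Fintype F] (σ : F ≃+* F) {r : ℕ}
    (hr : r.Prime) (hσr : σ ^ r = 1) (hne : ∃ x : F, σ x ≠ x)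
    (hfix : ∀ x : F, σ x = x → x = 0 ∨ x = 1) : Fintype.card F = 2 ^ r := by
  classical
  have hσ1 : σ ≠ 1 := by
    rintro rfl
    obtain ⟨x, hx⟩ := hne
    exact hx rfl
  have hord : orderOf σ = r := by
    have h1 : orderOf σ ∣ r := orderOf_dvd_of_pow_eq_one hσr
    rcases (Nat.dvd_prime hr).mp h1 with h | h
    · exact absurd (orderOf_eq_one_iff.mp h) hσ1
    · exact h
  let S : Subgroup (F ≃+* F) := Subgroup.zpowers σ
  have hfinS : Finite S := by
    have : Finite (F ≃+* F) := Finite.of_injective (fun e : F ≃+* F => (e : F → F))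
      DFunLike.coe_injective
    infer_instance
  let iS : Fintype S := Fintype.ofFinite S
  have hcardS : Fintype.card S = r := by
    rw [← Nat.card_eq_fintype_card, Nat.card_zpowers, hord]
  have hrank := FixedPoints.finrank_eq_card S F
  let iFix : Fintype (FixedPoints.subfield S F) := Fintype.ofFinite _
  have hcardFix : Fintype.card (FixedPoints.subfield S F) = 2 := by
    have hmem : ∀ x : FixedPoints.subfield S F, (x : F) = 0 ∨ (x : F) = 1 := by
      intro x
      apply hfix
      have := x.2 ⟨σ, Subgroup.mem_zpowers σ⟩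
      exact this
    have hle : Fintype.card (FixedPoints.subfield S F) ≤ 2 := by
      have hinj : Function.Injective (fun x : FixedPoints.subfield S F => decide ((x : F) = 0)) := by
        intro x y hxy
        apply Subtype.ext
        have hxy' : decide ((x : F) = 0) = decide ((y : F) = 0) := hxy
        rcases hmem x with hx | hx <;> rcases hmem y with hy | hy
        · rw [hx, hy]
        · rw [hx, hy] at hxy'; simp at hxy'
        · rw [hx, hy] at hxy'; simp at hxy'
        · rw [hx, hy]
      have := Fintype.card_le_of_injective _ hinj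
      simpa using this
    have hge : 1 < Fintype.card (FixedPoints.subfield S F) := Fintype.one_lt_card
    omega
  have hcard := Module.card_eq_pow_finrank (K := FixedPoints.subfield S F) (V := F)
  rw [hcard, hcardFix, hrank, hcardS]

end Cfsg.Agent.Helper56
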