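import Mathlib
import Cfsg.Agent.Helper29.FrobConj
import Cfsg.Agent.Helper21.FieldOfReg
import Cfsg.Agent.Helper56.ZFrob
import Cfsg.Agent.Helper56.ZSylow
import Cfsg.Agent.Helper56.ZassRegA

/-!
# Zassenhaus groups with a regular normal subgroup have degree `2 ^ p`, `p` prime (helper56)

`zassReg_degree`: a finite doubly transitive group in which only the identity fixes three points,
some nonidentity element fixes two points, and some normal subgroup is regular, has degree `2 ^ p`
for a prime `p`.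

Proof: the regular normal subgroup `N` is an elementary abelian `2`-group (a two-point stabiliser
element centralises exactly two elements of `N`); the point stabiliser `H` is a Frobenius group
on the remaining points, with kernel `K` (Frobenius' theorem) regular on `N \ {1}`; `K` is a
`Z`-group of odd order with a fixed-point-free automorphism, hence abelian; so `N` is a field on
which `K` acts by multiplications and a two-point stabiliser element of prime order `r` acts as
a field automorphism with fixed field of order `2`; by Artin `|N| = 2 ^ r`.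
-/

set_option autoImplicit false

namespace Cfsg.Agent.Helper56

universe u v

theorem zassReg_degree {G : Type u} {Ω : Type v} [Group G] [MulAction G Ω] [Fintype Ω]
    [FaithfulSMul G Ω] (h2 : MulAction.IsMultiplyPretransitive G Ω 2)
    (h3 : ∀ g : G, ∀ a b c : Ω, a ≠ b → b ≠ c → a ≠ c → g • a = a → g • b = b → g • c = c → g = 1)
    (hfix : ∃ g : G, g ≠ 1 ∧ ∃ a b : Ω, a ≠ b ∧ g • a = a ∧ g • b = b)
    (N : Subgroup G) [N.Normal] (hNt : MulAction.IsPretransitive N Ω)
    (hNr : ∀ a : Ω, MulAction.stabilizer N a = ⊥) :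
    ∃ p : ℕ, p.Prime ∧ Fintype.card Ω = 2 ^ p := by
  classical
  have hfinG : Finite G :=
    Finite.of_injective (MulAction.toPermHom G Ω) MulAction.toPerm_injective
  rw [MulAction.is_two_pretransitive_iff] at h2
  obtain ⟨g₀, hg₀, a, b, hab, hg₀a, hg₀b⟩ := hfix
  -- an element of prime order fixing `a` and `b`
  have hord0 : orderOf g₀ ≠ 0 := (orderOf_pos g₀).ne'
  have hord1 : orderOf g₀ ≠ 1 := fun h => hg₀ (orderOf_eq_one_iff.mp h)
  obtain ⟨r, hr_def⟩ : ∃ r, r = (orderOf g₀).minFac := ⟨_, rfl⟩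
  have hr : r.Prime := hr_def ▸ Nat.minFac_prime hord1
  obtain ⟨c, hc_def⟩ : ∃ c : G, c = g₀ ^ (orderOf g₀ / r) := ⟨_, rfl⟩
  have hcord : orderOf c = r := by
    rw [hc_def]
    exact orderOf_pow_orderOf_div hord0 (hr_def ▸ Nat.minFac_dvd _)
  have hc1 : c ≠ 1 := by
    intro h
    rw [h, orderOf_one] at hcord
    exact hr.one_lt.ne' hcord.symm
  have hca : c • a = a := by
    rw [hc_def]
    exact pow_mem (show g₀ ∈ MulAction.stabilizer G a from hg₀a) _
  have hcb : c • b = b := by
    rw [hc_def]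
    exact pow_mem (show g₀ ∈ MulAction.stabilizer G b from hg₀b) _
  -- regularity of `N`
  have hNex : ∀ y : Ω, ∃ n : N, (n : G) • a = y := fun y => by
    obtain ⟨n, hn⟩ := hNt.exists_smul_eq a y
    exact ⟨n, hn⟩
  have hNinj : ∀ n n' : N, (n : G) • a = (n' : G) • a → n = n' := by
    intro n n' h
    have h1 : n'⁻¹ * n ∈ MulAction.stabilizer N a := by
      rw [MulAction.mem_stabilizer_iff]
      show ((n'⁻¹ * n : N) : G) • a = a
      rw [Subgroup.coe_mul, Subgroup.coe_inv, mul_smul, h, inv_smul_smul]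
    rw [hNr a, Subgroup.mem_bot] at h1
    exact (inv_mul_eq_one.mp h1).symm
  have hN1 : ∀ n : N, (n : G) • a = a → n = 1 := fun n h => hNinj n 1 (by simpa using h)
  have hconj : ∀ h : G, h • a = a → ∀ n : N,
      ((MulAut.conjNormal h n : N) : G) • a = h • ((n : G) • a) := by
    intro h hh n
    rw [MulAut.conjNormal_apply, mul_smul, mul_smul]
    congr 2
    rw [inv_smul_eq_iff, hh]
  obtain ⟨e, he⟩ := hNex b
  have he1 : e ≠ 1 := by
    rintro rfl
    apply hab
    simpa using he
  -- fixed points of `c` on `N`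
  have hcfix : ∀ n : N, MulAut.conjNormal c n = n → n = 1 ∨ n = e := by
    intro n hn
    have h1 : c • ((n : G) • a) = (n : G) • a := by rw [← hconj c hca n, hn]
    by_cases hna : (n : G) • a = a
    · left; exact hN1 n hna
    · by_cases hnb : (n : G) • a = b
      · right; exact hNinj n e (by rw [hnb, he])
      · exfalso
        exact hc1 (h3 c a b ((n : G) • a) hab (Ne.symm hnb) (Ne.symm hna) hca hcb h1)
  have hce : MulAut.conjNormal c e = e := hNinj _ _ (by rw [hconj c hca e, he, hcb])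
  have hee : e * e = 1 := by
    have h1 : MulAut.conjNormal c (e * e) = e * e := by rw [map_mul, hce]
    rcases hcfix _ h1 with h | h
    · exact h
    · exfalso
      apply he1
      exact mul_left_cancel (a := e) (by rw [h, mul_one])
  have hHtrans : ∀ n : N, n ≠ 1 → ∃ h : G, h • a = a ∧ MulAut.conjNormal h e = n := by
    intro n hn
    have hna : (n : G) • a ≠ a := fun h => hn (hN1 n h)
    obtain ⟨h, hha, hhb⟩ := h2 hab (Ne.symm hna)
    exact ⟨h, hha, hNinj _ _ (by rw [hconj h hha e, he, hhb])⟩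
  have hexp : ∀ n : N, n * n = 1 := by
    intro n
    by_cases hn : n = 1
    · rw [hn, mul_one]
    · obtain ⟨h, -, rfl⟩ := hHtrans n hn
      rw [← map_mul, hee, map_one]
  have hinv : ∀ n : N, n⁻¹ = n := fun n => inv_eq_of_mul_eq_one_left (hexp n)
  have hNcomm : ∀ x y : N, x * y = y * x := by
    intro x y
    calc x * y = (x * y)⁻¹ := (hinv _).symm
      _ = y⁻¹ * x⁻¹ := mul_inv_rev _ _
      _ = y * x := by rw [hinv, hinv]
  -- a third point
  obtain ⟨y₀, hy₀a, hy₀b⟩ : ∃ y₀ : Ω, y₀ ≠ a ∧ y₀ ≠ b := by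
    by_contra hcon
    push Not at hcon
    apply hc1
    apply FaithfulSMul.eq_of_smul_eq_smul (α := Ω)
    intro y
    rw [one_smul]
    by_cases hy : y = a
    · rw [hy, hca]
    · rw [hcon y hy, hcb]
  -- the point stabiliser and its Frobenius structure
  obtain ⟨H, hH_def⟩ : ∃ H : Subgroup G, H = MulAction.stabilizer G a := ⟨_, rfl⟩
  have hHmem : ∀ x : G, x ∈ H ↔ x • a = a := fun x => by rw [hH_def]; rfl
  obtain ⟨C, hC_def⟩ : ∃ C : Subgroup H, C = MulAction.stabilizer H b := ⟨_, rfl⟩
  have hCmem : ∀ x : H, x ∈ C ↔ (x : G) • b = b := fun x => by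
    rw [hC_def, MulAction.mem_stabilizer_iff]; rfl
  obtain ⟨c', hc'_def⟩ : ∃ c' : H, c' = ⟨c, (hHmem c).mpr hca⟩ := ⟨_, rfl⟩
  have hc'val : (c' : G) = c := by rw [hc'_def]
  have hc'C : c' ∈ C := (hCmem c').mpr (by rw [hc'val]; exact hcb)
  have hc'1 : c' ≠ 1 := fun h => hc1 (by rw [← hc'val, h]; rfl)
  have hFC : Cfsg.IsFrobeniusComplement C := by
    rw [Cfsg.Agent.Helper71.isFrobeniusComplement_iff]
    refine ⟨?_, ?_, ?_⟩
    · intro h
      rw [h, Subgroup.mem_bot] at hc'C
      exact hc'1 hc'C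
    · intro h
      obtain ⟨g, hga, hgb⟩ := h2 hab (Ne.symm hy₀a)
      have h1 : (⟨g, (hHmem g).mpr hga⟩ : H) ∈ C := by rw [h]; exact Subgroup.mem_top _
      rw [hCmem] at h1
      exact hy₀b (hgb.symm.trans h1)
    · intro g hg x hx hgx
      rw [hCmem] at hg hx hgx
      have hxg : (x : G) • ((g : G) • b) = (g : G) • b := by
        have h1 : ((g : G)⁻¹ * (x : G) * (g : G)) • b = b := hgx
        rw [mul_smul, mul_smul, inv_smul_eq_iff] at h1
        exact h1
      have hga : (g : G) • a = a := (hHmem _).mp g.2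
      have hgba : (g : G) • b ≠ a := by
        intro h
        apply hab
        have h1 : (g : G) • b = (g : G) • a := by rw [h, hga]
        exact (MulAction.injective (g : G) h1).symm
      have h4 := h3 (x : G) a b ((g : G) • b) hab (Ne.symm hg) (Ne.symm hgba)
        ((hHmem _).mp x.2) hx hxg
      exact Subtype.ext h4
  have hfinH : Finite H := inferInstance
  obtain ⟨K, -, hKC⟩ := Cfsg.Agent.Helper29.exists_frobPair C hFC
  have hKn : K.Normal := hKC.normal
  have hKsemi : ∀ k : H, k ∈ K → ∀ y : Ω, y ≠ a → (k : G) • y = y → k = 1 := by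
    intro k hk y hy hky
    rcases (hKC.mem_iff k).mp hk with h | h
    · exact h
    · exfalso
      obtain ⟨g, hga, hgb⟩ := h2 hab (Ne.symm hy)
      apply h ⟨g, (hHmem g).mpr hga⟩
      rw [hCmem]
      show ((g : G)⁻¹ * (k : G) * g) • b = b
      rw [mul_smul, mul_smul, hgb, hky, inv_smul_eq_iff, hgb]
  have hKtrans : ∀ y : Ω, y ≠ a → ∃ k : H, k ∈ K ∧ (k : G) • b = y := by
    intro y hy
    obtain ⟨g, hga, hgb⟩ := h2 hab (Ne.symm hy)
    obtain ⟨k, hk, x, hx, hgx⟩ := hKC.exists_mul ⟨g, (hHmem g).mpr hga⟩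
    refine ⟨k, hk, ?_⟩
    have hxb : (x : G) • b = b := (hCmem x).mp hx
    have h1 : g = (k : G) * (x : G) := congrArg Subtype.val hgx
    rw [← hgb, h1, mul_smul, hxb]
  -- the conjugation action of `H` on `N`
  obtain ⟨θ, hθ_def⟩ : ∃ θ : H →* MulAut N, θ = (MulAut.conjNormal (H := N)).comp H.subtype :=
    ⟨_, rfl⟩
  have hθapp : ∀ (h : H) (n : N), θ h n = MulAut.conjNormal (h : G) n := fun h n => by
    rw [hθ_def]; rfl
  have hθ : ∀ (h : H) (n : N), ((θ h n : N) : G) • a = (h : G) • ((n : G) • a) := fun h n => by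
    rw [hθapp]; exact hconj h ((hHmem _).mp h.2) n
  have hKfpf : ∀ k : H, k ∈ K → ∀ n : N, θ k n = n → n ≠ 1 → k = 1 := by
    intro k hk n hn hn1
    have hna : (n : G) • a ≠ a := fun h => hn1 (hN1 n h)
    apply hKsemi k hk _ hna
    rw [← hθ k n, hn]
  have hKodd : ∀ k : H, k ∈ K → k * k = 1 → k = 1 := by
    intro k hk hkk
    by_contra hk1
    have hθθ : ∀ n : N, θ k (θ k n) = n := by
      intro n
      have h1 : θ k * θ k = 1 := by rw [← map_mul, hkk, map_one]
      calc θ k (θ k n) = (θ k * θ k) n := rfl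
        _ = n := by rw [h1]; rfl
    by_cases h1 : θ k e = e
    · exact hk1 (hKfpf k hk e h1 he1)
    · have h2' : θ k (e * θ k e) = e * θ k e := by
        rw [map_mul, hθθ, hNcomm]
      apply hk1
      apply hKfpf k hk (e * θ k e) h2'
      intro h
      apply h1
      calc θ k e = e⁻¹ := (inv_eq_of_mul_eq_one_right h).symm
        _ = e := hinv e
  obtain ⟨θK, hθK_def⟩ : ∃ θK : K →* MulAut N, θK = θ.comp K.subtype := ⟨_, rfl⟩
  have hθKapp : ∀ (k : K) (n : N), θK k n = θ (k : H) n := fun k n => by rw [hθK_def]; rfl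
  have hθK_inj : Function.Injective θK := by
    rw [injective_iff_map_eq_one]
    intro k hk
    have h1 : θ (k : H) e = e := by
      rw [← hθKapp, hk]; rfl
    exact Subtype.ext (hKfpf (k : H) k.2 e h1 he1)
  have hKne : K ≠ ⊥ := hKC.kernel_ne_bot
  obtain ⟨k₁, hk₁K, hk₁⟩ : ∃ k₁ ∈ K, k₁ ≠ 1 := by
    by_contra hcon
    push Not at hcon
    exact hKne ((Subgroup.eq_bot_iff_forall K).mpr hcon)
  obtain ⟨R, iR, iNT, ρ, hρ⟩ := exists_fpf_ring_of_fpf (K := N) θK.range (by
      rintro φ ⟨k, rfl⟩ hφ1 n hn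
      by_contra hn1
      apply hφ1
      have h1 : (k : H) = 1 := hKfpf (k : H) k.2 n (by rw [← hθKapp]; exact hn) hn1
      have hk : k = 1 := Subtype.ext h1
      rw [hk, map_one]) (by
      intro hbot
      have h1 : θK ⟨k₁, hk₁K⟩ ∈ θK.range := ⟨_, rfl⟩
      rw [hbot, Subgroup.mem_bot] at h1
      have h4 := hθK_inj (h1.trans (map_one θK).symm)
      exact hk₁ (congrArg Subtype.val h4))
  have hρK : Fpf (ρ.comp θK.rangeRestrict) := hρ.comp θK.rangeRestrict (by
      intro x y hxy
      apply hθK_inj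
      exact congrArg Subtype.val hxy)
  have hZ : IsZGroup K := by
    apply hρK.isZGroup
    intro P
    have hP1 : Nat.card P = 1 := by
      obtain ⟨m, hm⟩ := (P.isPGroup').exists_card_eq
      rcases Nat.eq_zero_or_pos m with rfl | hmpos
      · simpa using hm
      · exfalso
        have h2dvd : 2 ∣ Nat.card P := by rw [hm]; exact dvd_pow_self 2 hmpos.ne'
        obtain ⟨x, hx⟩ := exists_prime_orderOf_dvd_card' 2 h2dvd
        have hxx : x * x = 1 := by
          have h6 := pow_orderOf_eq_one x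
          rw [hx, pow_two] at h6
          exact h6
        have h1 : ((x : K) : H) = 1 := hKodd _ (x : K).2 (by
          have h5 := congrArg (fun z : P => ((z : K) : H)) hxx
          simpa using h5)
        have hx1 : x = 1 := Subtype.ext (Subtype.ext h1)
        rw [hx1, orderOf_one] at hx
        omega
    have : Subsingleton P := (Nat.card_eq_one_iff_unique.mp hP1).1
    exact isCyclic_of_subsingleton
  have hKcomm : ∀ x y : K, x * y = y * x := by
    have hc'K : c' ∉ K := fun h => hc'1 (hKC.disjoint h hc'C)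
    apply zassReg_comm_of_zgroup_fpf (MulAut.conjNormal c' : MulAut K)
    intro k hk
    have h1 : c' * (k : H) * c'⁻¹ = k := by
      have h5 := congrArg Subtype.val hk
      rwa [MulAut.conjNormal_apply] at h5
    have h2' : (k : H) = 1 := hKC.eq_one_of_commute hc'K k.2 (by
      calc c' * (k : H) = c' * (k : H) * c'⁻¹ * c' := by group
        _ = (k : H) * c' := by rw [h1])
    exact Subtype.ext h2'
  -- the field structure on `N`
  obtain ⟨F, iF, iFT, ev, μ, hev, h2F, hev0, hev1, hevadd, hevmul, hμne, hμsurj⟩ :=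
    Cfsg.Agent.Helper21.FieldOfReg.exists_field hNcomm hexp θK hKcomm e he1 (by
      intro n hn
      have hna : (n : G) • a ≠ a := fun h => hn (hN1 n h)
      obtain ⟨k, hk, hkb⟩ := hKtrans _ hna
      refine ⟨⟨k, hk⟩, hNinj _ _ ?_⟩
      rw [hθKapp, hθ k e, he, hkb])
  have hevinj : Function.Injective ev := hev.1
  obtain ⟨evE, hevE⟩ : ∃ evE : F ≃ N, ∀ x, evE x = ev x := ⟨Equiv.ofBijective ev hev, fun _ => rfl⟩
  have hevsymm : ∀ n : N, ev (evE.symm n) = n := fun n => by
    rw [← hevE]; exact evE.apply_symm_apply n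
  obtain ⟨τ, hτ_def⟩ : ∃ τ : MulAut N, τ = θ c' := ⟨_, rfl⟩
  have hτapp : ∀ n : N, τ n = MulAut.conjNormal c n := fun n => by
    rw [hτ_def, hθapp, hc'val]
  have hτe : τ e = e := by rw [hτapp]; exact hce
  have hτfix : ∀ n : N, τ n = n → n = 1 ∨ n = e := fun n hn => hcfix n (by rw [← hτapp]; exact hn)
  obtain ⟨σf, hσf⟩ : ∃ σf : F → F, ∀ x, ev (σf x) = τ (ev x) :=
    ⟨fun x => evE.symm (τ (ev x)), fun x => hevsymm _⟩
  have hσadd : ∀ x y, σf (x + y) = σf x + σf y := by
    intro x y
    apply hevinj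
    rw [hevadd, hσf, hσf, hσf, hevadd, map_mul]
  have hσ0 : σf 0 = 0 := by apply hevinj; rw [hσf, hev0, map_one]
  have hσ1 : σf 1 = 1 := by apply hevinj; rw [hσf, hev1, hτe]
  have hσμ : ∀ (d : K) (y : F), σf (μ d * y) = μ (MulAut.conjNormal c' d) * σf y := by
    intro d y
    apply hevinj
    rw [hσf, hevmul, hevmul, hσf]
    have h1 : τ * θK d = θK (MulAut.conjNormal c' d) * τ := by
      rw [hτ_def, hθK_def]
      show θ c' * θ (d : H) = θ ((MulAut.conjNormal c' d : K) : H) * θ c'
      rw [← map_mul, ← map_mul, MulAut.conjNormal_apply]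
      congr 1
      group
    exact congrArg (fun f : MulAut N => f (ev y)) h1
  have hσmul : ∀ x y, σf (x * y) = σf x * σf y := by
    intro x y
    by_cases hx : x = 0
    · rw [hx, zero_mul, hσ0, zero_mul]
    · obtain ⟨d, rfl⟩ := hμsurj x hx
      rw [hσμ d y]
      have h5 := hσμ d 1
      rw [mul_one, hσ1, mul_one] at h5
      rw [h5]
  obtain ⟨σ, hσ⟩ : ∃ σ : F ≃+* F, ∀ x, σ x = σf x := by
    refine ⟨{ toFun := σf
              invFun := fun x => evE.symm (τ⁻¹ (ev x))
              left_inv := fun x => ?_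
              right_inv := fun x => ?_
              map_mul' := hσmul
              map_add' := hσadd }, fun _ => rfl⟩
    · apply hevinj
      rw [hevsymm, hσf]
      simp
    · apply hevinj
      rw [hσf, hevsymm]
      simp
  have hσpow : ∀ (j : ℕ) (x : F), ev ((σ ^ j) x) = (τ ^ j) (ev x) := by
    intro j
    induction j with
    | zero => intro x; simp
    | succ j ih =>
      intro x
      rw [pow_succ', pow_succ']
      show ev (σ ((σ ^ j) x)) = τ ((τ ^ j) (ev x))
      rw [← ih x, hσ, hσf]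
  have hτr : τ ^ r = 1 := by
    rw [hτ_def, ← map_pow]
    have h1 : c' ^ r = 1 := by
      apply Subtype.ext
      rw [Subgroup.coe_pow, hc'val, ← hcord]
      exact pow_orderOf_eq_one c
    rw [h1, map_one]
  have hσr : σ ^ r = 1 := by
    ext x
    apply hevinj
    rw [hσpow, hτr]
    rfl
  have hσfix : ∀ x : F, σ x = x → x = 0 ∨ x = 1 := by
    intro x hx
    have h1 : τ (ev x) = ev x := by rw [← hσf x, ← hσ, hx]
    rcases hτfix _ h1 with h | h
    · left; apply hevinj; rw [h, hev0]
    · right; apply hevinj; rw [h, hev1]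
  have hσne : ∃ x : F, σ x ≠ x := by
    obtain ⟨n₀, hn₀⟩ := hNex y₀
    refine ⟨evE.symm n₀, fun h => ?_⟩
    rcases hσfix _ h with h0 | h1
    · have h5 : n₀ = 1 := by
        have h6 := congrArg ev h0
        rwa [hevsymm, hev0] at h6
      apply hy₀a
      rw [← hn₀, h5]
      simp
    · have h5 : n₀ = e := by
        have h6 := congrArg ev h1
        rwa [hevsymm, hev1] at h6
      apply hy₀b
      rw [← hn₀, h5, he]
  have hcardF := zassReg_card_of_field_aut σ hr hσr hσne hσfix
  refine ⟨r, hr, ?_⟩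
  rw [← hcardF]
  apply (Fintype.card_congr (Equiv.ofBijective (fun x : F => ((ev x : N) : G) • a) ⟨?_, ?_⟩)).symm
  · intro x y hxy
    exact hevinj (hNinj _ _ hxy)
  · intro y
    obtain ⟨n, hn⟩ := hNex y
    obtain ⟨x, rfl⟩ := hev.2 n
    exact ⟨x, hn⟩

end Cfsg.Agent.Helper56
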